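import Cfsg.Agent.Blocks.PairAlg.GLevel
import Cfsg.Agent.Fusion.Basic

/-!
# The maps of the fusion system of a block; fully centralized and fully normalized subgroups
-/

set_option autoImplicit false
set_option linter.unusedSectionVars false
set_option linter.style.haveILetI false

namespace CfsgLib.PairAlg

open Cfsg CfsgLib.Blocks Cfsg.FusionSystem

attribute [local instance] residueField residue_charP

universe u

variable {p : ℕ} [Fact p.Prime] {M : Ideal AlgInt} {G : Type u} [Group G] [Fintype G] (hM : IsPModular p M)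
  {B : Set (IrrCharacter G)} {P : Subgroup G} {e : Set (IrrCharacter (Subgroup.centralizer (P : Set G)))}
  (hmax : IsMaximalBrauerPair p M B P e)
include hM hmax

theorem isPair_of_le' {Q : Subgroup G} {a : MonoidAlgebra (Residue hM) G}
    (h : LE' p ⊤ Q a P (bc hM P e)) : IsPair p ⊤ Q a := h.isPair (isPair_bc hM hmax.1.1)

theorem mv_iff {Q : Subgroup G} {g : G} :
    Mv p P (bc hM P e) g Q ↔ Q ≤ P ∧ Q.map (MulAut.conj g).toMonoidHom ≤ P ∧
      ∃ f, SubpairLE p M Q f P e ∧ SubpairLE p M (Q.map (MulAut.conj g).toMonoidHom) (conjBlock Q g f) P e := by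
  constructor
  · rintro ⟨hQ, a, ha, hg⟩
    obtain ⟨f, hf, rfl⟩ := exists_bc hM (isPair_of_le' hM hmax ha)
    exact ⟨hQ, hg.subgroup_le, f, subpairLE_of_le' hM hf hmax.1.1 ha,
      (subpairLE_conjBlock_iff hM hf hmax.1.1 g).2 hg⟩
  · rintro ⟨hQ, -, f, hf, hg⟩
    obtain ⟨hQf, hle⟩ := le'_of_subpairLE hM hf hmax.1.1
    exact ⟨hQ, _, hle, (subpairLE_conjBlock_iff hM hQf hmax.1.1 g).1 hg⟩

variable {F : FusionSystem P} (hF : IsBlockFusionSystemOn p M B P e F)
include hF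

theorem mem_hom_iff {Q : Subgroup G} {φ : Q →* G} :
    φ ∈ F.Hom Q ↔ ∃ g, (∀ u : Q, φ u = g * (u : G) * g⁻¹) ∧ Mv p P (bc hM P e) g Q := by
  rw [hF.2]
  constructor
  · rintro ⟨hQ, g, hφ, h1, h2⟩
    exact ⟨g, hφ, (mv_iff hM hmax).2 ⟨hQ, h1, h2⟩⟩
  · rintro ⟨g, hφ, h⟩
    obtain ⟨hQ, h1, h2⟩ := (mv_iff hM hmax).1 h
    exact ⟨hQ, g, hφ, h1, h2⟩

theorem isConj_iff {Q R : Subgroup G} : F.IsConj Q R ↔ ∃ g, Mv p P (bc hM P e) g Q ∧ cm g Q = R := by
  have hr : ∀ (g : G) (φ : Q →* G), (∀ u : Q, φ u = g * (u : G) * g⁻¹) → φ.range = cm g Q := by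
    intro g φ hφ
    ext y
    constructor
    · rintro ⟨u, rfl⟩
      rw [hφ]
      exact conj_mem_cm.2 u.2
    · intro hy
      exact ⟨⟨_, mem_cm.1 hy⟩, by rw [hφ]; group⟩
  constructor
  · rintro ⟨φ, hφ, rfl⟩
    obtain ⟨g, hg, hmv⟩ := (mem_hom_iff hM hmax hF).1 hφ
    exact ⟨g, hmv, (hr g φ hg).symm⟩
  · rintro ⟨g, hmv, rfl⟩
    exact ⟨conjHom Q g, (mem_hom_iff hM hmax hF).2 ⟨g, fun u => rfl, hmv⟩, hr g _ fun u => rfl⟩

theorem isFullyCentralized_iff {Q : Subgroup G} {a : MonoidAlgebra (Residue hM) G}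
    (h : LE' p ⊤ Q a P (bc hM P e)) :
    F.IsFullyCentralized Q ↔
      Nat.card ↥(P ⊓ Subgroup.centralizer (Q : Set G)) = dmax p (Subgroup.centralizer (Q : Set G)) a := by
  have hc := complete (G := G) hM
  have hm := isMax_bc hM hmax
  constructor
  · intro hfc
    refine le_antisymm (card_inf_le hc hm h (centralizer_le_normalizer Q)) ?_
    obtain ⟨g, hg, hcard⟩ := exists_full hc hm h (centralizer_le_stab (isPair_of_le' hM hmax h))
    rw [← hcard, cm_centralizer]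
    exact hfc.2 (cm g Q) ((isConj_iff hM hmax hF).2 ⟨g, ⟨h.subgroup_le, a, h, hg⟩, rfl⟩)
  · refine fun heq => ⟨h.subgroup_le, fun R hR => ?_⟩
    obtain ⟨g, hmv, rfl⟩ := (isConj_iff hM hmax hF).1 hR
    show Nat.card ↥(P ⊓ Subgroup.centralizer ((cm g Q : Subgroup G) : Set G)) ≤ Nat.card ↥(P ⊓ _)
    rw [heq, ← cm_centralizer]
    exact card_inf_le_conj hc hm (centralizer_le_normalizer Q) (hmv.below hc hm h)

theorem isFullyNormalized_iff {Q : Subgroup G} {a : MonoidAlgebra (Residue hM) G}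
    (h : LE' p ⊤ Q a P (bc hM P e)) :
    F.IsFullyNormalized Q ↔
      Nat.card ↥(P ⊓ Subgroup.normalizer (Q : Set G)) = dmax p (stab Q a) a := by
  have hc := complete (G := G) hM
  have hm := isMax_bc hM hmax
  have key : ∀ g, LE' p ⊤ (cm g Q) (cj g a) P (bc hM P e) →
      P ⊓ cm g (stab Q a) = P ⊓ Subgroup.normalizer ((cm g Q : Subgroup G) : Set G) := fun g hg => by
    rw [cm_stab]
    exact inf_stab_eq (normalizer_le_stab hc hm hg)
  constructor
  · intro hfn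
    refine le_antisymm ?_ ?_
    · rw [← inf_stab_eq (normalizer_le_stab hc hm h)]
      exact card_inf_le hc hm h inf_le_left
    · obtain ⟨g, hg, hcard⟩ := exists_full hc hm h (le_refl (stab Q a))
      rw [← hcard, key g hg]
      exact hfn.2 (cm g Q) ((isConj_iff hM hmax hF).2 ⟨g, ⟨h.subgroup_le, a, h, hg⟩, rfl⟩)
  · refine fun heq => ⟨h.subgroup_le, fun R hR => ?_⟩
    obtain ⟨g, hmv, rfl⟩ := (isConj_iff hM hmax hF).1 hR
    have hg := hmv.below hc hm h
    show Nat.card ↥(P ⊓ Subgroup.normalizer ((cm g Q : Subgroup G) : Set G)) ≤ Nat.card ↥(P ⊓ _)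
    rw [heq, ← key g hg]
    exact card_inf_le_conj hc hm inf_le_left hg

end CfsgLib.PairAlg
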