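import Cfsg.Agent.Blocks.PairAlg.GLevel
import Cfsg.Agent.Blocks.CentralizerInduced

/-!
# Pairs of a local block as pairs above it; induction to a centralizer
-/

set_option autoImplicit false
set_option linter.unusedSectionVars false
set_option linter.style.haveILetI false

namespace CfsgLib.PairAlg

section Algebra

variable {k : Type*} [Field k] {G : Type*} [Group G] [Fintype G] {p : ℕ} [Fact p.Prime] [CharP k p]

/-- A pair inside a centralizer gives a pair above. -/
theorem nstep_of_local {Q R : Subgroup G} {f a : MonoidAlgebra k G} (hp : IsPair p ⊤ Q f)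
    (h : OfBlk p (Subgroup.centralizer (Q : Set G)) f R a) : NStep p ⊤ Q f (Q ⊔ R) a := by
  classical
  have hRC : R ≤ Subgroup.centralizer (Q : Set G) := h.2.1.le
  have hRN := hRC.trans (centralizer_le_normalizer Q)
  have hSp : IsPGroup p ↥(Q ⊔ R) := hp.isP.to_sup_of_normal_left' h.2.1.isP hRN
  have hcenS : Subgroup.centralizer ((Q ⊔ R : Subgroup G) : Set G) = CH (Subgroup.centralizer (Q : Set G)) R := by
    refine le_antisymm (le_inf (Subgroup.centralizer_le (SetLike.coe_subset_coe.2 le_sup_left))
      (Subgroup.centralizer_le (SetLike.coe_subset_coe.2 le_sup_right))) ?_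
    intro z hz
    refine Subgroup.mem_centralizer_iff.2 fun q hq => ?_
    have hsup : Q ⊔ R ≤ Subgroup.centralizer ({z} : Set G) := sup_le
      (fun u hu => Subgroup.mem_centralizer_singleton_iff.2 (Subgroup.mem_centralizer_iff.1 hz.1 u hu))
      (fun u hu => Subgroup.mem_centralizer_singleton_iff.2 (Subgroup.mem_centralizer_iff.1 hz.2 u hu))
    exact Subgroup.mem_centralizer_singleton_iff.1 (hsup hq)
  have hBr : Br (Q ⊔ R) f = Br R f := by
    have hQQ : Br Q f = f := hp.br_self
    conv_rhs => rw [← hQQ]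
    ext z
    simp only [Br, coeff_cut, hcenS, CH, Subgroup.mem_inf]
    split_ifs <;> first | rfl | simp_all
  exact ⟨hp, ⟨hSp, le_top, by rw [CH_top, hcenS]; exact h.2.1.blk⟩, le_sup_left, sup_le Subgroup.le_normalizer hRN,
    fun u hu => (sup_le (le_stab hp) (hRC.trans (centralizer_le_stab hp)) hu).2, by rw [hBr]; exact h.2.2⟩

end Algebra

open Cfsg CfsgLib.Blocks CfsgLib.CharBasics

attribute [local instance] residueField residue_charP

noncomputable local instance instFintypeSubgroupLocInd {G : Type*} [Group G] [Fintype G] (K : Subgroup G) :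
    Fintype K := Fintype.ofFinite K

universe u

variable {p : ℕ} [Fact p.Prime] {M : Ideal AlgInt} {G : Type u} [Group G] [Fintype G] (hM : IsPModular p M)
include hM

theorem phi_classElt {Q P : Subgroup G} (ξ : IrrCharacter (Subgroup.centralizer (P : Set G)))
    (h : Subgroup.centralizer (Q : Set G)) (hCC : Subgroup.centralizer (P : Set G) ≤ Subgroup.centralizer (Q : Set G)) :
    phi P (Subgroup.centralizer (Q : Set G)) ξ (classElt h) =
      inducedCentralCharIn (Subgroup.centralizer (Q : Set G)) (Subgroup.centralizer (P : Set G))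
        (ξ : Subgroup.centralizer (P : Set G) → ℂ) (h : G) := by
  classical
  rw [phi, ZStar.omega_res, inducedCentralCharIn, finsum_mem_def, finsum_eq_sum_of_fintype, Finset.sum_div]
  refine Finset.sum_congr rfl fun k _ => ?_
  rw [coeff_extElt_mem _ _ (hCC k.2), coeff_classElt, Set.indicator_apply]
  have hiff : IsConj h (⟨(k : G), hCC k.2⟩ : Subgroup.centralizer (Q : Set G)) ↔
      ∃ x : Subgroup.centralizer (Q : Set G), (x : G) * (k : G) * (x : G)⁻¹ = (h : G) := by
    rw [isConj_comm, isConj_iff]
    exact exists_congr fun x => ⟨fun e => congrArg Subtype.val e, fun e => Subtype.ext e⟩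
  simp only [Set.mem_setOf_eq, ← hiff]
  split_ifs <;> simp

/-- Induction into the centralizer of a central subgroup is normal inclusion of pairs. -/
theorem isInducedBlockIn_iff {Q P : Subgroup G} (hQP : Q ≤ P) (hPQ : P ≤ Subgroup.centralizer (Q : Set G))
    {c : Set (IrrCharacter (Subgroup.centralizer (P : Set G)))} (hPc : IsBrauerPair p M P c)
    {f : Set (IrrCharacter (Subgroup.centralizer (Q : Set G)))} :
    IsInducedBlockIn M (Subgroup.centralizer (Q : Set G)) (Subgroup.centralizer (P : Set G)) c f ↔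
      IsNormalSubpair p M Q f P c := by
  classical
  haveI : Fintype (ConjClasses (Subgroup.centralizer (Q : Set G))) := Fintype.ofFinite _
  have hCC : Subgroup.centralizer (P : Set G) ≤ Subgroup.centralizer (Q : Set G) := Subgroup.centralizer_le hQP
  have hst : ∀ (f : Set (IrrCharacter (Subgroup.centralizer (Q : Set G)))), ∀ x ∈ P,
      StabilizesBlock (Subgroup.centralizer (Q : Set G)) f x := fun f x hx => stabilizesBlock_self _ f (hPQ hx)
  constructor
  · rintro ⟨hc, hf, hind⟩
    refine ⟨⟨hPc.1.to_le hQP, hf⟩, hPc, hQP, hPQ.trans (centralizer_le_normalizer Q), hst f, fun ξ hξ => ?_⟩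
    rw [brauerOmega_subgroupBlockCoeff]
    obtain ⟨η, hη⟩ := IsPBlock.nonempty hM hf
    have h1 : omega (η : _ → ℂ) (blockElt f) = 1 := by rw [omega_blockElt, if_pos hη]
    rw [← h1, ZStar.eq_sum_classElt (isClassElt_blockElt f), phi_sum, ZStar.omega_sum, ← Finset.sum_sub_distrib]
    refine memLocalIdeal_sum hM _ fun C _ => ?_
    rw [phi_smul, omega_smul, omega_classElt η.2, phi_classElt hM ξ _ hCC, ← mul_sub]
    exact memLocalIdeal_mul_left hM (isIntegralElt_blockElt hM hf _) (hind ξ hξ η hη _)
  · rintro ⟨⟨-, hf⟩, -, -, -, hstab, h1⟩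
    refine ⟨hPc.2, hf, fun ξ hξ η hη h => ?_⟩
    have h2 := h1 ξ hξ
    rw [brauerOmega_subgroupBlockCoeff] at h2
    have h3 := phi_transfer hM hPc.1 hCC ξ hf hstab h2 hη (isClassElt_classElt h) (isIntegralElt_classElt hM h) ?_
    · rwa [omega_classElt η.2, phi_classElt hM ξ _ hCC] at h3
    · intro q hq g
      by_cases hg : g ∈ Subgroup.centralizer (Q : Set G)
      · rw [coeff_extElt_mem _ _ hg, coeff_extElt_mem _ _
          (Subgroup.mul_mem _ (Subgroup.mul_mem _ (hPQ hq) hg) (Subgroup.inv_mem _ (hPQ hq)))]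
        exact Blocks.coeff_conj (isClassElt_classElt h) ⟨g, hg⟩ ⟨q, hPQ hq⟩
      · rw [coeff_extElt_of_notMem _ _ hg, coeff_extElt_of_notMem]
        intro h'
        have := Subgroup.mul_mem _ (Subgroup.mul_mem _ (Subgroup.inv_mem _ (hPQ hq)) h') (hPQ hq)
        exact hg (by simpa [mul_assoc] using this)

/-- An inducing block of the centralizer of a defect group gives a maximal pair. -/
theorem isMaximal_of_induced {B : Set (IrrCharacter G)} {P : Subgroup G} (hPD : IsDefectGroup p M B P)
    {c : Set (IrrCharacter (Subgroup.centralizer (P : Set G)))}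
    (hc : IsInducedBlock M (Subgroup.centralizer (P : Set G)) c B) : IsMaximalBrauerPair p M B P c := by
  classical
  have hP : IsBrauerPair p M P c := ⟨isPGroup_of_isDefectGroup hPD, hc.1⟩
  refine ⟨⟨hP, hc.2.1, fun ξ hξ => ?_⟩, fun R g hR hle => ?_⟩
  · obtain ⟨χ, hχ⟩ := IsPBlock.nonempty hM hc.2.1
    have := ZStar.omega_res_induced hM hc hξ hχ (isClassElt_blockElt B) (isIntegralElt_blockElt hM hc.2.1)
    rw [brauerOmega_blockCoeff]
    rwa [omega_blockElt, if_pos hχ] at this
  · obtain ⟨-, hle'⟩ := le'_of_subpairLE hM hle hR.1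
    refine (Subgroup.eq_of_le_of_card_ge hle'.subgroup_le ?_).symm
    have hof := (isBrauerPairOf_iff_bc hM hc.2.1 hR.1).1 hR
    rw [((isDefectGroup_iff hM (MonoidHom.id G) id_injective hc.2.1).1 hPD).2.2, range_id]
    exact le_dmax hR.1.1 le_top hof.br_ne

end CfsgLib.PairAlg
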