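import Cfsg.Agent.Blocks.PairAlg.Saturated
import Cfsg.Agent.Fusion.AlperinCor

/-!
# Nilpotent blocks and their fusion systems
-/

set_option autoImplicit false
set_option linter.unusedSectionVars false
set_option linter.style.haveILetI false

namespace CfsgLib.PairAlg

open Cfsg CfsgLib.Blocks Cfsg.FusionSystem

attribute [local instance] residueField residue_charP

universe u

variable {p : ℕ} [Fact p.Prime] {M : Ideal AlgInt} {G : Type u} [Group G] [Fintype G] (hM : IsPModular p M)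
  {B : Set (IrrCharacter G)} {P : Subgroup G} {e : Set (IrrCharacter (Subgroup.centralizer (P : Set G)))}
  (hmax : IsMaximalBrauerPair p M B P e)
include hM hmax

/-- Every pair of the block is conjugate into the maximal one. -/
theorem exists_conj_below_max {Q : Subgroup G} {a : MonoidAlgebra (Residue hM) G}
    (h : OfBlk p ⊤ (bG hM B) Q a) : ∃ x, LE' p ⊤ (cm x Q) (cj x a) P (bc hM P e) := by
  obtain ⟨R, g, hR, hle⟩ := exists_max h
  obtain ⟨y, -, h1, h2⟩ := max_conj (complete (G := G) hM) hR (isMax_bc hM hmax)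
  have := hle.cj y
  rw [show cm y R = P from h1.symm, ← h2] at this
  exact ⟨y, this⟩

theorem ofBlk_of_below {Q : Subgroup G} {a : MonoidAlgebra (Residue hM) G} (h : LE' p ⊤ Q a P (bc hM P e)) :
    OfBlk p ⊤ (bG hM B) Q a :=
  (ofBlk_iff_of_le (complete (G := G) hM) h).1 (isMax_bc hM hmax).1

/-- In a nilpotent block the `p`-regular elements of the stabilizer centralize. -/
theorem mem_centralizer_of_nilpotent (hnil : IsNilpotentBlock p M B) {Q : Subgroup G}
    {a : MonoidAlgebra (Residue hM) G} (h : OfBlk p ⊤ (bG hM B) Q a) {t : G} (ht : t ∈ stab Q a)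
    (hreg : IsPRegular p t) : t ∈ Subgroup.centralizer (Q : Set G) := by
  obtain ⟨f, hf, rfl⟩ := exists_bc hM h.2.1
  exact hnil.2 Q f ((isBrauerPairOf_iff_bc hM hnil.1 hf).2 h) t ht.1
    ((stabilizesBlock_bc_iff hM hf.2 ht.1).2 ht.2) hreg

variable {F : FusionSystem P} (hF : IsBlockFusionSystemOn p M B P e F)
include hF

theorem isPGroup_autGroup_of_nilpotent (hnil : IsNilpotentBlock p M B) {Q : Subgroup G} (hQ : Q ≤ P) :
    IsPGroup p (F.autGroup Q) := by
  have hm := isMax_bc hM hmax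
  obtain ⟨a, ha⟩ := exists_below (complete (G := G) hM) hm.1.2.1 hQ
  obtain ⟨φ, hr, hk, -⟩ := exists_autHom hM hmax hF ha
  rw [← hr]
  rintro ⟨_, t, rfl⟩
  set n := orderOf (t : G) with hn
  refine ⟨n.factorization p, Subtype.ext ?_⟩
  show (φ t) ^ p ^ n.factorization p = 1
  rw [← map_pow, ← MonoidHom.mem_ker, hk, Subgroup.mem_subgroupOf]
  refine mem_centralizer_of_nilpotent hM hmax hnil (ofBlk_of_below hM hmax ha) (SetLike.coe_mem _) ?_
  rw [Subgroup.coe_pow, IsPRegular, orderOf_pow' _ (pow_ne_zero _ (Fact.out : p.Prime).ne_zero), ← hn,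
    Nat.gcd_eq_right (Nat.ordProj_dvd n p)]
  exact Nat.not_dvd_ordCompl (Fact.out : p.Prime) (orderOf_pos _).ne'

theorem hom_eq_inner_of_nilpotent (hnil : IsNilpotentBlock p M B) : F = innerFusionSystem P :=
  CfsgLib.Fusion.eq_inner_of_isPGroup_aut (hmax.1.1.1) (isSaturated_block hM hmax hF)
    fun Q hQ => isPGroup_autGroup_of_nilpotent hM hmax hF hnil hQ.1

theorem isFullyCentralized_of_nilpotent (hnil : IsNilpotentBlock p M B) {Q : Subgroup G} (hQ : Q ≤ P) :
    F.IsFullyCentralized Q := by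
  refine ⟨hQ, fun R hR => ?_⟩
  obtain ⟨φ, hφ, rfl⟩ := hR
  rw [hom_eq_inner_of_nilpotent hM hmax hF hnil] at hφ
  obtain ⟨-, u, hu, hφu⟩ := hφ
  rw [range_eq_cm hφu]
  show Nat.card ↥(P ⊓ Subgroup.centralizer ((cm u Q : Subgroup G) : Set G)) ≤ Nat.card ↥(P ⊓ _)
  refine le_of_eq ?_
  rw [← card_cm u (P ⊓ Subgroup.centralizer (Q : Set G)), cm_inf, cm_centralizer,
    cm_of_mem_normalizer (Subgroup.le_normalizer hu)]

end CfsgLib.PairAlg
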