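import Cfsg.Agent.Blocks.PairAlg.Lift

/-!
# Brauer pairs and defect groups in terms of reduced idempotents
-/

set_option autoImplicit false
set_option linter.unusedSectionVars false
set_option linter.style.haveILetI false

namespace CfsgLib.PairAlg

open Cfsg CfsgLib.Blocks CfsgLib.CharBasics

attribute [local instance] residueField residue_charP

/-- The largest order of a `p`-subgroup of `K` at which `a` does not vanish. -/
noncomputable def dmax {k : Type*} [Field k] {G : Type*} [Group G] [Fintype G] (p : ℕ) (K : Subgroup G)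
    (a : MonoidAlgebra k G) : ℕ := by
  classical exact Finset.sup (Finset.univ.filter fun R : Subgroup G => IsPGroup p R ∧ R ≤ K ∧ Br R a ≠ 0) fun R => Nat.card R

theorem le_dmax {k : Type*} [Field k] {G : Type*} [Group G] [Fintype G] {p : ℕ} {K R : Subgroup G}
    {a : MonoidAlgebra k G} (hR : IsPGroup p R) (hRK : R ≤ K) (hne : Br R a ≠ 0) : Nat.card R ≤ dmax p K a := by
  classical
  exact Finset.le_sup (f := fun R : Subgroup G => Nat.card R) (Finset.mem_filter.2 ⟨Finset.mem_univ R, hR, hRK, hne⟩)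

theorem br_bot {k : Type*} [Field k] {G : Type*} [Group G] [Fintype G] (a : MonoidAlgebra k G) :
    Br (⊥ : Subgroup G) a = a :=
  cut_eq_self fun x _ => Subgroup.mem_centralizer_iff.2 fun q hq => by
    rw [SetLike.mem_coe, Subgroup.mem_bot] at hq
    rw [hq, one_mul, mul_one]

theorem exists_dmax {k : Type*} [Field k] {G : Type*} [Group G] [Fintype G] {p : ℕ} (K : Subgroup G)
    {a : MonoidAlgebra k G} (ha : a ≠ 0) :
    ∃ R : Subgroup G, IsPGroup p R ∧ R ≤ K ∧ Br R a ≠ 0 ∧ Nat.card R = dmax p K a := by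
  classical
  obtain ⟨R, hR, he⟩ := Finset.exists_mem_eq_sup
    (Finset.univ.filter fun R : Subgroup G => IsPGroup p R ∧ R ≤ K ∧ Br R a ≠ 0)
    ⟨⊥, Finset.mem_filter.2 ⟨Finset.mem_univ _, IsPGroup.of_bot, bot_le, by rwa [br_bot]⟩⟩ fun R => Nat.card R
  obtain ⟨-, h1, h2, h3⟩ := Finset.mem_filter.1 hR
  refine ⟨R, h1, h2, h3, ?_⟩
  unfold dmax
  exact he.symm

variable {p : ℕ} {M : Ideal AlgInt} {G : Type*} [Group G] [Fintype G] {A : Type*} [Group A] [Fintype A]

theorem rd_eq_one_iff (hM : IsPModular p M) {c : ℂ} (hc : MemLocalRing M c) :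
    rd hM c = 1 ↔ MemLocalIdeal M (c - 1) := by
  rw [← rd_one hM, rd_congr hM hc (memLocalRing_one hM)]

theorem isPGroup_map_iff {ι : A →* G} (hι : Function.Injective ι) {Q : Subgroup A} :
    IsPGroup p (Q.map ι) ↔ IsPGroup p Q :=
  ⟨fun h => h.of_equiv (Q.equivMapOfInjective ι hι).symm, fun h => h.map ι⟩

section Dict

variable (hM : IsPModular p M) (ι : A →* G) (hι : Function.Injective ι)
include hM hι

omit hM in
theorem injective_comp (K : Subgroup A) : Function.Injective (ι.comp K.subtype) := hι.comp K.subtype_injective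

omit hM in
theorem mem_centralizer_map {Q : Subgroup A} {a : A} :
    ι a ∈ Subgroup.centralizer ((Q.map ι : Subgroup G) : Set G) ↔ a ∈ Subgroup.centralizer (Q : Set A) := by
  simp only [Subgroup.mem_centralizer_iff, Subgroup.coe_map, Set.forall_mem_image, ← map_mul, hι.eq_iff]

omit hM in
theorem range_centralizer (Q : Subgroup A) :
    (ι.comp (Subgroup.centralizer (Q : Set A)).subtype).range = CH ι.range (Q.map ι) := by
  ext g
  constructor
  · rintro ⟨c, rfl⟩
    exact ⟨⟨(c : A), rfl⟩, (mem_centralizer_map ι hι).2 c.2⟩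
  · rintro ⟨⟨a, rfl⟩, hc⟩
    exact ⟨⟨a, (mem_centralizer_map ι hι).1 hc⟩, rfl⟩

/-- Reduction of an element of a subgroup, through extension by zero. -/
theorem up_comp_subtype (K : Subgroup A) [Fintype K] (z : MonoidAlgebra ℂ K) :
    up hM (ι.comp K.subtype) z = up hM ι (extElt K z) := by
  ext g
  by_cases hg : g ∈ ι.range
  · obtain ⟨a, rfl⟩ := hg
    rw [coeff_up hM ι hι]
    by_cases ha : a ∈ K
    · rw [show ι a = (ι.comp K.subtype) ⟨a, ha⟩ from rfl, coeff_up hM _ (injective_comp ι hι K),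
        coeff_extElt_mem K z ha]
    · rw [coeff_extElt_of_notMem K z ha, rd_zero, coeff_up_of_notMem hM]
      rintro ⟨c, hc⟩
      exact ha (hι hc ▸ c.2)
  · rw [coeff_up_of_notMem hM ι _ hg, coeff_up_of_notMem hM]
    rintro ⟨c, rfl⟩
    exact hg ⟨(c : A), rfl⟩

theorem br_up (Q : Subgroup A) [Fintype (Subgroup.centralizer (Q : Set A))] (z : MonoidAlgebra ℂ A) :
    Br (Q.map ι) (up hM ι z) =
      up hM (ι.comp (Subgroup.centralizer (Q : Set A)).subtype) (ZStar.res (Subgroup.centralizer (Q : Set A)) z) := by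
  ext g
  by_cases hg : g ∈ CH ι.range (Q.map ι)
  · rw [← range_centralizer ι hι] at hg
    obtain ⟨c, rfl⟩ := hg
    rw [coeff_up hM _ (injective_comp ι hι _), Br]
    rw [show (ι.comp (Subgroup.centralizer (Q : Set A)).subtype) c = ι (c : A) from rfl,
      coeff_cut_of_mem _ ((mem_centralizer_map ι hι).2 c.2), coeff_up hM ι hι, ZStar.coeff_res]
  · rw [coeff_up_of_notMem hM _ _ (range_centralizer ι hι Q ▸ hg)]
    by_cases hc : g ∈ Subgroup.centralizer ((Q.map ι : Subgroup G) : Set G)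
    · rw [Br, coeff_cut_of_mem _ hc, coeff_up_of_notMem hM ι _ fun h => hg ⟨h, hc⟩]
    · rw [Br, coeff_cut_of_notMem _ hc]

theorem isPair_bl {Q : Subgroup A} [Fintype (Subgroup.centralizer (Q : Set A))]
    {f : Set (IrrCharacter (Subgroup.centralizer (Q : Set A)))} (h : IsBrauerPair p M Q f) :
    IsPair p ι.range (Q.map ι) (bl hM (ι.comp (Subgroup.centralizer (Q : Set A)).subtype) f) where
  isP := h.1.map ι
  le := by rw [MonoidHom.range_eq_map]; exact Subgroup.map_mono le_top
  blk := range_centralizer ι hι Q ▸ isBlk_bl hM _ (injective_comp ι hι _) h.2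

theorem exists_of_isPair {R : Subgroup G} {a : MonoidAlgebra (Residue hM) G} (h : IsPair p ι.range R a) :
    ∃ Q : Subgroup A, Q.map ι = R ∧ ∀ [Fintype (Subgroup.centralizer (Q : Set A))],
      ∃ f, IsBrauerPair p M Q f ∧ bl hM (ι.comp (Subgroup.centralizer (Q : Set A)).subtype) f = a := by
  refine ⟨R.comap ι, Subgroup.map_comap_eq_self h.le, ?_⟩
  intro _
  have hQ : (R.comap ι).map ι = R := Subgroup.map_comap_eq_self h.le
  obtain ⟨f, hf, he⟩ := exists_bl hM _ (injective_comp ι hι _) (K := CH ι.range R)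
    (by rw [range_centralizer ι hι, hQ]) h.blk
  exact ⟨f, ⟨(isPGroup_map_iff hι).1 (hQ.symm ▸ h.isP), hf⟩, he⟩

theorem isBrauerPairOf_iff_ofBlk {B : Set (IrrCharacter A)} (hB : IsPBlock M B) {Q : Subgroup A}
    [Fintype (Subgroup.centralizer (Q : Set A))]
    {f : Set (IrrCharacter (Subgroup.centralizer (Q : Set A)))} (hQf : IsBrauerPair p M Q f) :
    IsBrauerPairOf p M B Q f ↔
      OfBlk p ι.range (bl hM ι B) (Q.map ι) (bl hM (ι.comp (Subgroup.centralizer (Q : Set A)).subtype) f) := by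
  haveI := Fact.mk hM.1
  have hι' := injective_comp ι hι (Subgroup.centralizer (Q : Set A))
  obtain ⟨ξ, hξ⟩ := IsPBlock.nonempty hM hQf.2
  have hz := ZStar.isClassElt_res (isClassElt_blockElt B) (Subgroup.centralizer (Q : Set A))
  have hzi := ZStar.isIntegralElt_res (isIntegralElt_blockElt hM hB) (Subgroup.centralizer (Q : Set A))
  have hfix : Fix (Q.map ι) (bl hM ι B) := (cenIn_up hM ι hι (isClassElt_blockElt B)).2.mono
    (isPair_bl hM ι hι hQf).le
  have hid : Br (Q.map ι) (bl hM ι B) * Br (Q.map ι) (bl hM ι B) = Br (Q.map ι) (bl hM ι B) := by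
    rw [← br_mul (hQf.1.map ι) hfix hfix, bl_idem hM ι hB]
  have key : bl hM (ι.comp (Subgroup.centralizer (Q : Set A)).subtype) f * Br (Q.map ι) (bl hM ι B) =
      bl hM (ι.comp (Subgroup.centralizer (Q : Set A)).subtype) f ↔
      ∀ η ∈ f, MemLocalIdeal M (brauerOmega Q (blockCoeff B) (η : Subgroup.centralizer (Q : Set A) → ℂ) - 1) := by
    simp only [bl] at hid ⊢
    rw [br_up hM ι hι] at hid ⊢
    constructor
    · intro h η hη
      rw [brauerOmega_blockCoeff, ← rd_eq_one_iff hM (memLocalRing_omega hM η hz hzi)]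
      exact (bl_mul_eq_iff hM _ hι' hQf.2 hz hzi hid hη).1 h
    · intro h
      have h1 := h ξ hξ
      rw [brauerOmega_blockCoeff, ← rd_eq_one_iff hM (memLocalRing_omega hM ξ hz hzi)] at h1
      exact (bl_mul_eq_iff hM _ hι' hQf.2 hz hzi hid hξ).2 h1
  exact ⟨fun h => ⟨isBlk_bl hM ι hι hB, isPair_bl hM ι hι hQf, key.2 h.2.2⟩,
    fun h => ⟨hQf, hB, key.1 h.2.2⟩⟩

/-- Transport of blocks by conjugation. -/
theorem cj_bl {A' : Type*} [Group A'] [Fintype A'] (ι' : A' →* G) (φ : A ≃* A') (x : G)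
    (hφ : ∀ a, ι' (φ a) = x * ι a * x⁻¹) (b : Set (IrrCharacter A)) :
    cj x (bl hM ι b) = bl hM ι' (pushBlock φ b) :=
  cj_up hM ι ι' φ x hφ fun a => by rw [coeff_blockElt, coeff_blockElt, blockCoeff_pushBlock]

theorem stabilizesBlock_iff_cj {K : Subgroup A} [Fintype K] {f : Set (IrrCharacter K)} (hf : IsPBlock M f)
    {x : A} : StabilizesBlock K f x ↔
      x ∈ Subgroup.normalizer (K : Set A) ∧ cj (ι x) (bl hM (ι.comp K.subtype) f) = bl hM (ι.comp K.subtype) f := by
  have key : ∀ hx : x ∈ Subgroup.normalizer (K : Set A),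
      cj (ι x) (bl hM (ι.comp K.subtype) f) = bl hM (ι.comp K.subtype) (pushBlock (conjK hx) f) := fun hx =>
    cj_bl hM (ι.comp K.subtype) (injective_comp ι hι K) (ι.comp K.subtype) (conjK hx) (ι x)
      (fun a => by simp [coe_conjK]) f
  rw [stabilizesBlock_iff]
  constructor
  · rintro ⟨hx, h⟩
    exact ⟨hx, by rw [key hx, h]⟩
  · rintro ⟨hx, h⟩
    rw [key hx] at h
    exact ⟨hx, bl_inj hM _ (injective_comp ι hι K) (isPBlock_pushBlock _ hf) hf h⟩

set_option maxHeartbeats 800000 in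
theorem nstep_iff {Q P : Subgroup A} [Fintype (Subgroup.centralizer (Q : Set A))]
    [Fintype (Subgroup.centralizer (P : Set A))]
    {f : Set (IrrCharacter (Subgroup.centralizer (Q : Set A)))}
    {e : Set (IrrCharacter (Subgroup.centralizer (P : Set A)))}
    (hQf : IsBrauerPair p M Q f) (hPe : IsBrauerPair p M P e) :
    IsNormalSubpair p M Q f P e ↔
      NStep p ι.range (Q.map ι) (bl hM (ι.comp (Subgroup.centralizer (Q : Set A)).subtype) f) (P.map ι)
        (bl hM (ι.comp (Subgroup.centralizer (P : Set A)).subtype) e) := by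
  haveI := Fact.mk hM.1
  have hnor : P ≤ Subgroup.normalizer (Q : Set A) ↔ P.map ι ≤ Subgroup.normalizer ((Q.map ι : Subgroup G) : Set G) := by
    constructor
    · intro h
      exact (Subgroup.map_mono h).trans (Subgroup.le_normalizer_map ι)
    · intro h x hx
      refine Subgroup.mem_normalizer_iff.2 fun q => ?_
      have := Subgroup.mem_normalizer_iff.1 (h ⟨x, hx, rfl⟩) (ι q)
      rw [← map_inv, ← map_mul, ← map_mul, Subgroup.mem_map_iff_mem hι, Subgroup.mem_map_iff_mem hι] at this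
      exact this
  have hle : Q ≤ P ↔ Q.map ι ≤ P.map ι := (Subgroup.map_le_map_iff_of_injective hι).symm
  have hst : P ≤ Subgroup.normalizer (Q : Set A) →
      ((∀ x ∈ P, StabilizesBlock (Subgroup.centralizer (Q : Set A)) f x) ↔ Fix (P.map ι) (bl hM (ι.comp (Subgroup.centralizer (Q : Set A)).subtype) f)) := by
    intro hN
    constructor
    · rintro h _ ⟨x, hx, rfl⟩
      exact ((stabilizesBlock_iff_cj hM ι hι hQf.2).1 (h x hx)).2
    · intro h x hx
      exact (stabilizesBlock_iff_cj hM ι hι hQf.2).2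
        ⟨le_normalizer_centralizer Q (hN hx), h _ ⟨x, hx, rfl⟩⟩
  have hmul : Q ≤ P → (∀ x ∈ P, StabilizesBlock (Subgroup.centralizer (Q : Set A)) f x) →
      ((∀ ξ ∈ e, MemLocalIdeal M (brauerOmega P (subgroupBlockCoeff (Subgroup.centralizer (Q : Set A)) f) (ξ : (Subgroup.centralizer (P : Set A)) → ℂ) - 1)) ↔
        bl hM (ι.comp (Subgroup.centralizer (P : Set A)).subtype) e * Br (P.map ι) (bl hM (ι.comp (Subgroup.centralizer (Q : Set A)).subtype) f) = bl hM (ι.comp (Subgroup.centralizer (P : Set A)).subtype) e) := by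
    intro hQP hs
    have hCK : (Subgroup.centralizer (P : Set A)) ≤ (Subgroup.centralizer (Q : Set A)) := Subgroup.centralizer_le (SetLike.coe_subset_coe.2 hQP)
    have hfix : Fix (P.map ι) (bl hM (ι.comp (Subgroup.centralizer (Q : Set A)).subtype) f) := by
      rintro _ ⟨x, hx, rfl⟩
      exact ((stabilizesBlock_iff_cj hM ι hι hQf.2).1 (hs x hx)).2
    have hid : Br (P.map ι) (bl hM (ι.comp (Subgroup.centralizer (Q : Set A)).subtype) f) * Br (P.map ι) (bl hM (ι.comp (Subgroup.centralizer (Q : Set A)).subtype) f) =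
        Br (P.map ι) (bl hM (ι.comp (Subgroup.centralizer (Q : Set A)).subtype) f) := by
      rw [← br_mul (hPe.1.map ι) hfix hfix, bl_idem hM _ hQf.2]
    have hz := isClassElt_res_extElt hCK (isClassElt_blockElt f)
    have hzi := ZStar.isIntegralElt_res (isIntegralElt_extElt hM (Subgroup.centralizer (Q : Set A)) (isIntegralElt_blockElt hM hQf.2)) (Subgroup.centralizer (P : Set A))
    have hι' := injective_comp ι hι (Subgroup.centralizer (P : Set A))
    simp only [bl] at hid ⊢
    rw [up_comp_subtype hM ι hι (Subgroup.centralizer (Q : Set A)), br_up hM ι hι] at hid ⊢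
    constructor
    · intro h
      obtain ⟨ξ, hξ⟩ := IsPBlock.nonempty hM hPe.2
      have h1 := h ξ hξ
      rw [brauerOmega_subgroupBlockCoeff, phi, ← rd_eq_one_iff hM (memLocalRing_omega hM ξ hz hzi)] at h1
      exact (bl_mul_eq_iff hM _ hι' hPe.2 hz hzi hid hξ).2 h1
    · intro h ξ hξ
      rw [brauerOmega_subgroupBlockCoeff, phi, ← rd_eq_one_iff hM (memLocalRing_omega hM ξ hz hzi)]
      exact (bl_mul_eq_iff hM _ hι' hPe.2 hz hzi hid hξ).1 h
  constructor
  · rintro ⟨-, -, h1, h2, h3, h4⟩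
    exact ⟨isPair_bl hM ι hι hQf, isPair_bl hM ι hι hPe, hle.1 h1, hnor.1 h2, (hst h2).1 h3, (hmul h1 h3).1 h4⟩
  · rintro ⟨-, -, h1, h2, h3, h4⟩
    exact ⟨hQf, hPe, hle.2 h1, hnor.2 h2, (hst (hnor.2 h2)).2 h3, (hmul (hle.2 h1) ((hst (hnor.2 h2)).2 h3)).2 h4⟩

theorem br_bl_ne_iff {B : Set (IrrCharacter A)} (hB : IsPBlock M B) {R : Subgroup A} :
    Br (R.map ι) (bl hM ι B) ≠ 0 ↔ ∃ y ∈ Subgroup.centralizer (R : Set A), ¬ MemLocalIdeal M (blockCoeff B y) := by
  constructor
  · intro hne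
    obtain ⟨g, hg⟩ : ∃ g, (Br (R.map ι) (bl hM ι B)).coeff g ≠ 0 := by
      by_contra hcon
      push Not at hcon
      exact hne (MonoidAlgebra.ext (Finsupp.ext hcon))
    have hgc : g ∈ Subgroup.centralizer ((R.map ι : Subgroup G) : Set G) := supp_cut _ _ g hg
    rw [Br, coeff_cut_of_mem _ hgc] at hg
    obtain ⟨y, rfl⟩ := supp_up hM ι _ g hg
    refine ⟨y, (mem_centralizer_map ι hι).1 hgc, fun h => hg ?_⟩
    rw [bl, coeff_up hM ι hι, coeff_blockElt]
    exact (rd_eq_zero hM (memLocalRing_blockCoeff hM hB y)).2 h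
  · rintro ⟨y, hy, hy2⟩ h0
    apply hy2
    rw [← rd_eq_zero hM (memLocalRing_blockCoeff hM hB y), ← coeff_blockElt, ← coeff_up hM ι hι]
    have h1 := congrArg (fun t : MonoidAlgebra (Residue hM) G => t.coeff (ι y)) h0
    rw [Br] at h1
    simp only [coeff_cut_of_mem _ ((mem_centralizer_map ι hι).2 hy)] at h1
    exact h1

theorem br_ne_of_isDefectGroup {B : Set (IrrCharacter A)} (hB : IsPBlock M B) {D : Subgroup A}
    (hD : IsDefectGroup p M B D) : Br (D.map ι) (bl hM ι B) ≠ 0 := by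
  obtain ⟨g, hg, S, rfl⟩ := hD
  refine (br_bl_ne_iff hM ι hι hB).2 ⟨g, Subgroup.mem_centralizer_iff.2 fun q hq => ?_, hg.2.1⟩
  obtain ⟨s, -, rfl⟩ := hq
  exact Subgroup.mem_centralizer_singleton_iff.1 s.2

theorem exists_defectGroup_ge_of_br_ne {B : Set (IrrCharacter A)} (hB : IsPBlock M B) {R : Subgroup A}
    (hR : IsPGroup p R) (hne : Br (R.map ι) (bl hM ι B) ≠ 0) :
    ∃ D : Subgroup A, IsDefectGroup p M B D ∧ R ≤ D := by
  obtain ⟨y, hy, hy2⟩ := (br_bl_ne_iff hM ι hι hB).1 hne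
  exact exists_defectGroup_ge hM hB hy2 hR (Subgroup.mem_centralizer_iff.1 hy)

omit hM in
theorem card_map_eq (R : Subgroup A) : Nat.card (R.map ι) = Nat.card R := Subgroup.card_map_of_injective hι

theorem dmax_range {B : Set (IrrCharacter A)} (hB : IsPBlock M B) :
    dmax p ι.range (bl hM ι B) = p ^ blockDefect p B := by
  obtain ⟨R, h1, h2, h3, h4⟩ := exists_dmax (p := p) ι.range (bl_ne hM ι hι hB)
  have hR : (R.comap ι).map ι = R := Subgroup.map_comap_eq_self h2
  rw [← hR] at h1 h3 h4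
  obtain ⟨D, hD, hRD⟩ := exists_defectGroup_ge_of_br_ne hM ι hι hB ((isPGroup_map_iff hι).1 h1) h3
  refine le_antisymm ?_ ?_
  · rw [← h4, card_map_eq ι hι, ← card_defectGroup hM hB hD]
    exact Subgroup.card_le_of_le hRD
  · rw [← card_defectGroup hM hB hD, ← card_map_eq ι hι]
    refine le_dmax ((isPGroup_of_isDefectGroup hD).map ι) ?_ (br_ne_of_isDefectGroup hM ι hι hB hD)
    rw [MonoidHom.range_eq_map]
    exact Subgroup.map_mono le_top

/-- Defect groups are the largest `p`-subgroups at which the block does not vanish. -/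
theorem isDefectGroup_iff {B : Set (IrrCharacter A)} (hB : IsPBlock M B) {D : Subgroup A} :
    IsDefectGroup p M B D ↔
      IsPGroup p D ∧ Br (D.map ι) (bl hM ι B) ≠ 0 ∧ Nat.card D = dmax p ι.range (bl hM ι B) := by
  rw [dmax_range hM ι hι hB]
  constructor
  · intro h
    exact ⟨isPGroup_of_isDefectGroup h, br_ne_of_isDefectGroup hM ι hι hB h, card_defectGroup hM hB h⟩
  · rintro ⟨h1, h2, h3⟩
    obtain ⟨D', hD', hle⟩ := exists_defectGroup_ge_of_br_ne hM ι hι hB h1 h2
    have he : D = D' := Subgroup.eq_of_le_of_card_ge hle (by rw [h3, card_defectGroup hM hB hD'])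
    rwa [he]

end Dict

end CfsgLib.PairAlg
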