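import Cfsg.Agent.Blocks.PairAlg.GLevel

/-!
# The augmentation and principal blocks
-/

set_option autoImplicit false
set_option linter.unusedSectionVars false
set_option linter.style.haveILetI false

namespace CfsgLib.PairAlg

section Algebra

variable {k : Type*} [Field k] {G : Type*} [Group G] [Fintype G]

/-- The augmentation. -/
noncomputable def eps : MonoidAlgebra k G →+* k := (MonoidAlgebra.lift k k G (1 : G →* k)).toRingHom

theorem eps_single (g : G) (c : k) : eps (MonoidAlgebra.single g c) = c := by
  simp [eps]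

theorem eps_eq_sum (a : MonoidAlgebra k G) : eps a = ∑ g, a.coeff g := by
  classical
  conv_lhs => rw [← MonoidAlgebra.sum_single a]
  rw [Finsupp.sum_fintype _ _ (fun g => by simp), map_sum]
  simp only [eps_single]

theorem eps_cj (x : G) (a : MonoidAlgebra k G) : eps (cj x a) = eps a := by
  rw [eps_eq_sum, eps_eq_sum]
  refine Fintype.sum_equiv (MulAut.conj x⁻¹).toEquiv _ _ fun g => ?_
  rw [coeff_cj]
  congr 1
  simp [mul_assoc]

theorem eps_br {p : ℕ} [Fact p.Prime] [CharP k p] {P : Subgroup G} (hP : IsPGroup p P) {a : MonoidAlgebra k G}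
    (ha : Fix P a) : eps (Br P a) = eps a := by
  classical
  rw [eps_eq_sum, eps_eq_sum]
  letI : MulAction P G := MulAction.compHom G (MulAut.conj.comp P.subtype)
  have hs : ∀ (u : P) (g : G), u • g = (u : G) * g * (u : G)⁻¹ := fun u g => rfl
  rw [sum_eq_sum_fixed hP (fun g => a.coeff g) (fun u g => by simp only [hs]; exact ha.coeff u.2 g),
    Finset.sum_filter]
  refine Finset.sum_congr rfl fun g _ => ?_
  have hiff : (∀ u : P, u • g = g) ↔ g ∈ Subgroup.centralizer (P : Set G) := by
    simp only [hs, mul_inv_eq_iff_eq_mul, Subgroup.mem_centralizer_iff, Subtype.forall, SetLike.mem_coe]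
  split_ifs with hf
  · rw [Br, coeff_cut_of_mem _ (hiff.1 hf)]
  · rw [Br, coeff_cut_of_notMem _ fun h => hf (hiff.2 h)]

theorem eps_zero_or_one {a : MonoidAlgebra k G} (h : a * a = a) : eps a = 0 ∨ eps a = 1 := by
  have h1 := congrArg (eps (k := k) (G := G)) h
  rw [map_mul] at h1
  rcases eq_or_ne (eps a) 0 with h0 | h0
  · exact Or.inl h0
  · exact Or.inr (mul_left_cancel₀ h0 (by rw [mul_one, h1]))

theorem IsBlk.eq_of_eps {K : Subgroup G} {a b : MonoidAlgebra k G} (ha : IsBlk K a) (hb : IsBlk K b)
    (h1 : eps a = 1) (h2 : eps b = 1) : a = b := by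
  refine (ha.eq_or_mul_eq_zero hb).resolve_left fun h => ?_
  have := congrArg (eps (k := k) (G := G)) h
  rw [map_mul, h1, h2, map_zero, mul_one] at this
  exact one_ne_zero this

theorem LE'.eps_eq_one {p : ℕ} [Fact p.Prime] [CharP k p] {H P Q : Subgroup G} {e f : MonoidAlgebra k G}
    (h : LE' p H Q f P e) (he : eps e = 1) : eps f = 1 := by
  refine le'_induction (motive := fun _ a => eps a = 1) he (fun R a S b hs _ ih => ?_) h
  have h1 := congrArg (eps (k := k) (G := G)) hs.mul
  rwa [map_mul, ih, one_mul, eps_br hs.right.isP hs.fix] at h1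

end Algebra

open Cfsg CfsgLib.Blocks CfsgLib.CharBasics

attribute [local instance] residueField residue_charP

variable {p : ℕ} {M : Ideal AlgInt} {G : Type*} [Group G] [Fintype G] {A : Type*} [Group A] [Fintype A]

theorem eps_bl_principal (hM : IsPModular p M) (ι : A →* G) :
    eps (bl hM ι (principalBlock M A)) = 1 := by
  classical
  have h : eps (bl hM ι (principalBlock M A)) = ∑ a, rd hM ((blockElt (principalBlock M A)).coeff a) := by
    rw [bl, up, map_sum]
    simp only [eps_single]
  rw [h, ← rd_sum hM _ _ fun a _ => isIntegralElt_blockElt hM (isPBlock_principal (M := M)) a]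
  have h1 : omega ((oneChar : IrrCharacter A) : A → ℂ) (blockElt (principalBlock M A)) = 1 := by
    rw [omega_blockElt, if_pos (oneChar_mem_principal hM)]
  have h2 : omega ((oneChar : IrrCharacter A) : A → ℂ) (blockElt (principalBlock M A)) =
      ∑ a, (blockElt (principalBlock M A)).coeff a := by
    simp [omega, oneChar]
  rw [← h2, h1, rd_one]

end CfsgLib.PairAlg
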