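import Cfsg.Agent.Blocks.PairAlg.Dict

/-!
# Local structure below a maximal pair: conjugation, full subpairs, extension, and conjugation maps
-/

set_option autoImplicit false
set_option linter.unusedSectionVars false
set_option linter.style.haveILetI false

namespace CfsgLib.PairAlg

open scoped Pointwise

variable {k : Type*} [Field k] {G : Type*} [Group G] [Fintype G] {p : ℕ} [Fact p.Prime] [CharP k p]

/-- Conjugate subgroup. -/
def cm (x : G) (R : Subgroup G) : Subgroup G := R.map (MulAut.conj x).toMonoidHom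

theorem mem_cm {x g : G} {R : Subgroup G} : g ∈ cm x R ↔ x⁻¹ * g * x ∈ R := by
  constructor
  · rintro ⟨r, hr, rfl⟩; simpa [mul_assoc] using hr
  · exact fun h => ⟨_, h, by simp [mul_assoc]⟩

theorem conj_mem_cm {x g : G} {R : Subgroup G} : x * g * x⁻¹ ∈ cm x R ↔ g ∈ R := by
  rw [mem_cm]; simp [mul_assoc]

theorem cm_cm (x y : G) (R : Subgroup G) : cm x (cm y R) = cm (x * y) R := by
  ext g; simp [mem_cm, mul_assoc]

theorem cm_one (R : Subgroup G) : cm 1 R = R := by
  ext g; simp [mem_cm]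

theorem cm_mono {x : G} {R S : Subgroup G} (h : R ≤ S) : cm x R ≤ cm x S := Subgroup.map_mono h

theorem cm_inf (x : G) (R S : Subgroup G) : cm x (R ⊓ S) = cm x R ⊓ cm x S := by
  ext g; simp [mem_cm]

theorem cm_of_mem_normalizer {x : G} {R : Subgroup G} (h : x ∈ Subgroup.normalizer (R : Set G)) : cm x R = R := by
  ext g
  rw [mem_cm]
  have := (Subgroup.mem_normalizer_iff.1 h (x⁻¹ * g * x))
  rw [show x * (x⁻¹ * g * x) * x⁻¹ = g by group] at this
  exact this

theorem mem_normalizer_of_cm {x : G} {R : Subgroup G} (h : cm x R = R) :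
    x ∈ Subgroup.normalizer (R : Set G) := Subgroup.mem_normalizer_iff.2 fun g => by
  conv_rhs => rw [← h]
  exact conj_mem_cm.symm

theorem cm_centralizer (x : G) (R : Subgroup G) :
    cm x (Subgroup.centralizer (R : Set G)) = Subgroup.centralizer ((cm x R : Subgroup G) : Set G) := by
  ext g
  rw [mem_cm, Subgroup.mem_centralizer_iff, Subgroup.mem_centralizer_iff]
  constructor
  · intro h q hq
    have h2 := h _ (mem_cm.1 hq)
    have := congrArg (fun t => x * t * x⁻¹) h2
    simpa [mul_assoc] using this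
  · intro h q hq
    have h2 := h _ (conj_mem_cm.2 hq)
    have := congrArg (fun t => x⁻¹ * t * x) h2
    simpa [mul_assoc] using this

theorem cm_normalizer (x : G) (R : Subgroup G) :
    cm x (Subgroup.normalizer (R : Set G)) = Subgroup.normalizer ((cm x R : Subgroup G) : Set G) := by
  ext g
  rw [mem_cm, Subgroup.mem_normalizer_iff, Subgroup.mem_normalizer_iff]
  constructor
  · intro h t
    have := h (x⁻¹ * t * x)
    rw [mem_cm, mem_cm]
    simpa [mul_assoc] using this
  · intro h t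
    have := h (x * t * x⁻¹)
    rw [mem_cm, mem_cm] at this
    simpa [mul_assoc] using this

theorem card_cm (x : G) (R : Subgroup G) : Nat.card (cm x R) = Nat.card R :=
  Subgroup.card_map_of_injective (MulAut.conj x).injective

theorem isPGroup_cm {x : G} {R : Subgroup G} (h : IsPGroup p R) : IsPGroup p (cm x R) := h.map _

theorem cm_top (x : G) : cm x (⊤ : Subgroup G) = ⊤ := Subgroup.map_top_of_surjective _ (MulAut.conj x).surjective

theorem br_cm (x : G) (R : Subgroup G) (a : MonoidAlgebra k G) : Br (cm x R) (cj x a) = cj x (Br R a) := by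
  unfold Br
  rw [cj_cut]
  congr 1
  rw [← cm_centralizer]; rfl

theorem br_cm_ne {x : G} {R : Subgroup G} {a : MonoidAlgebra k G} :
    Br (cm x R) (cj x a) ≠ 0 ↔ Br R a ≠ 0 := by
  rw [br_cm, not_iff_not]
  exact ⟨fun h => cj_injective x (by rw [h, map_zero]), fun h => by rw [h, map_zero]⟩

theorem br_ne_of_le {R R' : Subgroup G} (h : R' ≤ R) {a : MonoidAlgebra k G} (hne : Br R a ≠ 0) : Br R' a ≠ 0 :=
  fun h0 => hne (by rw [← br_br h, h0, map_zero])

theorem dmax_cm (x : G) (K : Subgroup G) (a : MonoidAlgebra k G) : dmax p (cm x K) (cj x a) = dmax p K a := by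
  classical
  have key : ∀ (x : G) (K : Subgroup G) (a : MonoidAlgebra k G), dmax p K a ≤ dmax p (cm x K) (cj x a) := by
    intro x K a
    unfold dmax
    refine Finset.sup_le fun R hR => ?_
    obtain ⟨-, h1, h2, h3⟩ := Finset.mem_filter.1 hR
    rw [← card_cm x R]
    exact le_dmax (isPGroup_cm h1) (cm_mono h2) (br_cm_ne.2 h3)
  refine le_antisymm ?_ (key x K a)
  refine (key x⁻¹ (cm x K) (cj x a)).trans ?_
  rw [cm_cm, inv_mul_cancel, cm_one, cj_inv_cj]

theorem dmax_mono {K L : Subgroup G} (h : K ≤ L) (a : MonoidAlgebra k G) : dmax p K a ≤ dmax p L a := by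
  classical
  unfold dmax
  refine Finset.sup_le fun R hR => ?_
  obtain ⟨-, h1, h2, h3⟩ := Finset.mem_filter.1 hR
  exact le_dmax h1 (h2.trans h) h3

theorem CH_top (P : Subgroup G) : CH ⊤ P = Subgroup.centralizer (P : Set G) := top_inf_eq _

theorem CH_of_le {K P : Subgroup G} (h : Subgroup.centralizer (P : Set G) ≤ K) :
    CH K P = Subgroup.centralizer (P : Set G) := inf_eq_right.2 h

theorem IsPair.cj {P : Subgroup G} {e : MonoidAlgebra k G} (h : IsPair p ⊤ P e) (x : G) :
    IsPair p ⊤ (cm x P) (PairAlg.cj x e) where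
  isP := isPGroup_cm h.isP
  le := le_top
  blk := by
    have h1 := h.blk.cj x
    rw [CH_top, show (Subgroup.centralizer (P : Set G)).map (MulAut.conj x).toMonoidHom =
      Subgroup.centralizer ((cm x P : Subgroup G) : Set G) from cm_centralizer x P] at h1
    rwa [CH_top]

theorem NStep.cj {Q P : Subgroup G} {f e : MonoidAlgebra k G} (h : NStep p ⊤ Q f P e) (x : G) :
    NStep p ⊤ (cm x Q) (PairAlg.cj x f) (cm x P) (PairAlg.cj x e) where
  left := h.left.cj x
  right := h.right.cj x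
  le := cm_mono h.le
  nor := by rw [← cm_normalizer]; exact cm_mono h.nor
  fix := by
    intro u hu
    rw [cj_cj, show u * x = x * (x⁻¹ * u * x) by group, ← cj_cj, h.fix _ (mem_cm.1 hu)]
  mul := by rw [br_cm, ← map_mul, h.mul]

theorem LE'.cj {Q P : Subgroup G} {f e : MonoidAlgebra k G} (h : LE' p ⊤ Q f P e) (x : G) :
    LE' p ⊤ (cm x Q) (PairAlg.cj x f) (cm x P) (PairAlg.cj x e) :=
  le'_induction (motive := fun R g => LE' p ⊤ (cm x R) (PairAlg.cj x g) (cm x P) (PairAlg.cj x e)) LE'.refl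
    (fun _ _ _ _ hs _ ih => (hs.cj x).le'.trans ih) h

theorem OfBlk.cj {P : Subgroup G} {E e : MonoidAlgebra k G} (h : OfBlk p ⊤ E P e) (x : G) :
    OfBlk p ⊤ E (cm x P) (PairAlg.cj x e) := by
  refine ⟨h.1, h.2.1.cj x, ?_⟩
  rw [← h.1.cen.2 x (Subgroup.mem_top x), br_cm, ← map_mul, h.2.2]

/-- Pairs of an intermediate subgroup containing the centralizers are pairs of the group. -/
theorem IsPair.of_sub {K R : Subgroup G} {a : MonoidAlgebra k G} (h : IsPair p K R a)
    (hC : Subgroup.centralizer (R : Set G) ≤ K) : IsPair p ⊤ R a :=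
  ⟨h.isP, le_top, by rw [CH_top, ← CH_of_le hC]; exact h.blk⟩

theorem IsPair.to_sub {K R : Subgroup G} {a : MonoidAlgebra k G} (h : IsPair p ⊤ R a) (hRK : R ≤ K)
    (hC : Subgroup.centralizer (R : Set G) ≤ K) : IsPair p K R a :=
  ⟨h.isP, hRK, by rw [CH_of_le hC, ← CH_top R]; exact h.blk⟩

theorem LE'.of_sub {K R S : Subgroup G} {a b : MonoidAlgebra k G} (h : LE' p K R a S b)
    (hC : Subgroup.centralizer (R : Set G) ≤ K) : LE' p ⊤ R a S b := by
  refine le'_induction (motive := fun R a => Subgroup.centralizer (R : Set G) ≤ K → LE' p ⊤ R a S b)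
    (fun _ => LE'.refl) (fun Q f R g hs _ ih hQ => ?_) h hC
  have hR : Subgroup.centralizer (R : Set G) ≤ K := (Subgroup.centralizer_le hs.le).trans hQ
  have hstep : NStep p ⊤ Q f R g := ⟨hs.left.of_sub hQ, hs.right.of_sub hR, hs.le, hs.nor, hs.fix, hs.mul⟩
  exact hstep.le'.trans (ih hR)

/-- The stabilizer of an element. -/
def stabOf (a : MonoidAlgebra k G) : Subgroup G where
  carrier := {u | PairAlg.cj u a = a}
  mul_mem' := fun {u v} hu hv => by
    show PairAlg.cj (u * v) a = a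
    rw [← cj_cj, (hv : PairAlg.cj v a = a)]; exact hu
  one_mem' := cj_one_apply a
  inv_mem' := fun {u} hu => by
    show PairAlg.cj u⁻¹ a = a
    conv_lhs => rw [← (hu : PairAlg.cj u a = a)]
    exact cj_inv_cj u a

theorem mem_stabOf {a : MonoidAlgebra k G} {u : G} : u ∈ stabOf a ↔ PairAlg.cj u a = a := Iff.rfl

/-- The stabilizer of a pair. -/
def stab (Q : Subgroup G) (f : MonoidAlgebra k G) : Subgroup G := Subgroup.normalizer (Q : Set G) ⊓ stabOf f

theorem cm_stab (x : G) (Q : Subgroup G) (f : MonoidAlgebra k G) :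
    cm x (stab Q f) = stab (cm x Q) (PairAlg.cj x f) := by
  rw [stab, cm_inf, cm_normalizer, stab]
  congr 1
  ext u
  rw [mem_cm, mem_stabOf, mem_stabOf, cj_cj]
  refine ⟨fun h => ?_, fun h => cj_injective x ?_⟩
  · rw [show u * x = x * (x⁻¹ * u * x) by group, ← cj_cj, h]
  · rw [cj_cj, show x * (x⁻¹ * u * x) = u * x by group, h]

theorem centralizer_le_normalizer (Q : Subgroup G) :
    Subgroup.centralizer (Q : Set G) ≤ Subgroup.normalizer (Q : Set G) := fun x hx =>
  Subgroup.mem_normalizer_iff.2 fun q => ⟨fun hq => by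
    rwa [← Subgroup.mem_centralizer_iff.1 hx q hq, mul_inv_cancel_right], fun hq => by
    have := Subgroup.mem_centralizer_iff.1 hx _ hq
    have h2 : x * q * x⁻¹ = q := mul_left_cancel (a := x) (by rw [← this]; group)
    rwa [← h2]⟩

theorem centralizer_le_stab {Q : Subgroup G} {f : MonoidAlgebra k G} (h : IsPair p ⊤ Q f) :
    Subgroup.centralizer (Q : Set G) ≤ stab Q f :=
  le_inf (centralizer_le_normalizer Q) fun u hu => h.blk.cen.2 u ⟨Subgroup.mem_top u, hu⟩

theorem le_stab {Q : Subgroup G} {f : MonoidAlgebra k G} (h : IsPair p ⊤ Q f) : Q ≤ stab Q f :=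
  le_inf Subgroup.le_normalizer fun u hu => h.fix u hu

theorem cenIn_cut {K S : Subgroup G} (hn : ∀ u ∈ K, cm u S = S) {z : MonoidAlgebra k G} (hz : CenIn K z) :
    CenIn K (cut S z) := by
  refine ⟨fun x hx => ?_, fun u hu => ?_⟩
  · by_cases h : x ∈ S
    · rw [coeff_cut_of_mem _ h] at hx; exact hz.1 x hx
    · exact absurd (coeff_cut_of_notMem _ h) hx
  · rw [cj_cut, hz.2 u hu]
    congr 1
    exact congrArg cut (hn u hu)

open Blocks in
/-- A central element killed by the Brauer map of a normal `p`-subgroup is nilpotent. -/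
theorem nilpotent_sub_br {K Q : Subgroup G} (hQ : IsPGroup p Q) (hQK : Q ≤ K)
    (hKN : K ≤ Subgroup.normalizer (Q : Set G)) {z : MonoidAlgebra k G} (hz : CenIn K z) :
    IsNilpotent (z - Br Q z) := by
  classical
  have hC : ∀ u ∈ K, cm u (Subgroup.centralizer (Q : Set G)) = Subgroup.centralizer (Q : Set G) := fun u hu => by
    rw [cm_centralizer, cm_of_mem_normalizer (hKN hu)]
  have hw : CenIn K (z - Br Q z) := hz.sub (cenIn_cut hC hz)
  set w := z - Br Q z with hwdef
  have hw0 : ∀ x ∈ Subgroup.centralizer (Q : Set G), w.coeff x = 0 := fun x hx => by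
    simp [hwdef, Br, coeff_cut_of_mem _ hx]
  haveI : (Q.subgroupOf K).Normal := Subgroup.normal_subgroupOf_of_le_normalizer hKN
  haveI : Fintype K := Fintype.ofFinite _
  haveI : Fintype (Q.subgroupOf K) := Fintype.ofFinite _
  have hQ' : IsPGroup p (Q.subgroupOf K) := hQ.of_equiv (Subgroup.subgroupOfEquivOfLe hQK).symm
  have hsum : ∀ g : K, ∑ u : Q.subgroupOf K, w.coeff ((g * (u : K) : K) : G) = 0 := by
    intro g
    letI : MulAction (Q.subgroupOf K) (Q.subgroupOf K) :=
      { smul := fun u v => ⟨g⁻¹ * (u : K) * g * (v : K) * (u : K)⁻¹, by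
          refine Subgroup.mul_mem _ (Subgroup.mul_mem _ ?_ v.2) (Subgroup.inv_mem _ u.2)
          simpa using (inferInstance : (Q.subgroupOf K).Normal).conj_mem _ u.2 g⁻¹⟩
        one_smul := fun v => Subtype.ext (by
          show g⁻¹ * ((1 : Q.subgroupOf K) : K) * g * (v : K) * ((1 : Q.subgroupOf K) : K)⁻¹ = v
          simp)
        mul_smul := fun a b v => Subtype.ext (by
          show g⁻¹ * ((a * b : Q.subgroupOf K) : K) * g * (v : K) * ((a * b : Q.subgroupOf K) : K)⁻¹ =
            g⁻¹ * (a : K) * g * (g⁻¹ * (b : K) * g * (v : K) * (b : K)⁻¹) * (a : K)⁻¹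
          simp only [Subgroup.coe_mul]; group) }
    rw [sum_eq_sum_fixed hQ' (fun v : Q.subgroupOf K => w.coeff ((g * (v : K) : K) : G)) ?_]
    · refine Finset.sum_eq_zero fun v hv => hw0 _ (Subgroup.mem_centralizer_iff.2 fun q hq => ?_)
      have h := congrArg (fun t : Q.subgroupOf K => ((t : K) : G)) ((Finset.mem_filter.1 hv).2 ⟨⟨q, hQK hq⟩, hq⟩)
      have h' : (g : G)⁻¹ * q * (g : G) * ((v : K) : G) * q⁻¹ = ((v : K) : G) := h
      rw [Subgroup.coe_mul]
      calc q * ((g : G) * ((v : K) : G)) = (g : G) * ((g : G)⁻¹ * q * (g : G) * ((v : K) : G) * q⁻¹) * q := by group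
        _ = _ := by rw [h']
    · intro u v
      show w.coeff ((g * (g⁻¹ * (u : K) * g * (v : K) * (u : K)⁻¹) : K) : G) = _
      rw [show g * (g⁻¹ * (u : K) * g * (v : K) * (u : K)⁻¹) = (u : K) * (g * (v : K)) * (u : K)⁻¹ by group,
        Subgroup.coe_mul, Subgroup.coe_mul, Subgroup.coe_inv, hw.2.coeff (u : K).2]
  obtain ⟨N, hN⟩ := conv_nilpotent p (Q.subgroupOf K) hQ' (fun x : K => w.coeff (x : G)) hsum
  refine ⟨N, ?_⟩
  have hpow : ∀ n : ℕ, Supp K (w ^ n) ∧ ∀ x : K, (w ^ n).coeff (x : G) =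
      (((conv fun x : K => w.coeff (x : G)) ^ n) fun y : K => (1 : MonoidAlgebra k G).coeff (y : G)) x := by
    intro n
    induction n with
    | zero => exact ⟨by rw [pow_zero]; exact supp_one K, fun x => by simp⟩
    | succ n ih =>
      refine ⟨by rw [pow_succ']; exact hw.1.mul ih.1, fun x => ?_⟩
      rw [pow_succ', pow_succ', Module.End.mul_apply, PairAlg.coeff_mul_eq]
      show _ = ∑ h : K, w.coeff (h : G) * _
      rw [← Finset.sum_filter_add_sum_filter_not Finset.univ (· ∈ K),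
        Finset.sum_eq_zero (s := Finset.univ.filter fun h => ¬ h ∈ K) fun h hh => by
          rw [by_contra fun hne => (Finset.mem_filter.1 hh).2 (hw.1 h hne), zero_mul],
        add_zero, Finset.sum_subtype (p := (· ∈ K)) (Finset.univ.filter (· ∈ K)) (by simp)]
      refine Finset.sum_congr rfl fun h _ => ?_
      rw [← ih.2]
      simp
  ext g
  by_cases hg : g ∈ K
  · rw [(hpow N).2 ⟨g, hg⟩, hN]; simp
  · by_contra h; exact hg ((hpow N).1 g (by simpa using h))

/-- A stable block of the centralizer is a block of every intermediate subgroup. -/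
theorem isBlk_of_stab {K Q : Subgroup G} {f : MonoidAlgebra k G} (hf : IsPair p ⊤ Q f) (hQK : Q ≤ K)
    (hCK : Subgroup.centralizer (Q : Set G) ≤ K) (hKT : K ≤ stab Q f) : IsBlk K f where
  cen := ⟨hf.blk.cen.1.mono (CH_top Q ▸ hCK), fun u hu => (hKT hu).2⟩
  idem := hf.blk.idem
  ne := hf.blk.ne
  scal := fun z hz => by
    have hC : ∀ u ∈ K, cm u (Subgroup.centralizer (Q : Set G)) = Subgroup.centralizer (Q : Set G) := fun u hu => by
      rw [cm_centralizer, cm_of_mem_normalizer (hKT hu).1]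
    have hzc : CenIn K (Br Q z) := cenIn_cut hC hz
    have hfc : CenIn K f := ⟨hf.blk.cen.1.mono (CH_top Q ▸ hCK), fun u hu => (hKT hu).2⟩
    have hbr : CenIn (CH ⊤ Q) (Br Q z) := by
      rw [CH_top]
      exact ⟨supp_cut _ z, hzc.2.mono hCK⟩
    obtain ⟨c, hc⟩ := hf.blk.scal _ hbr
    refine ⟨c, ?_⟩
    have h1 : IsNilpotent (f * (z - Br Q z)) :=
      Commute.isNilpotent_mul_left (hfc.comm (hz.sub hzc).1) (nilpotent_sub_br hf.isP hQK (fun u hu => (hKT hu).1) hz)
    rw [show f * z - c • f = f * (z - Br Q z) + (f * Br Q z - c • f) by rw [mul_sub]; abel]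
    refine Commute.isNilpotent_add ?_ h1 hc
    have hcs : CenIn K (c • f) := ⟨hfc.1.smul c, hfc.2.smul c⟩
    exact (hfc.mul (hz.sub hzc)).comm ((hfc.mul hzc).sub hcs).1

/-- Moves below a maximal pair. -/
def Mv (p : ℕ) (P : Subgroup G) (e : MonoidAlgebra k G) (g : G) (Q : Subgroup G) : Prop :=
  Q ≤ P ∧ ∃ f, LE' p ⊤ Q f P e ∧ LE' p ⊤ (cm g Q) (PairAlg.cj g f) P e

variable (hc : Complete k G) {P : Subgroup G} {E e : MonoidAlgebra k G} (hmax : IsMax p ⊤ E P e)
include hc hmax

omit hc in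
theorem isPair_max : IsPair p ⊤ P e := hmax.1.2.1

omit hc in
theorem cj_of_mem {u : G} (hu : u ∈ P) : PairAlg.cj u e = e := hmax.1.2.1.fix u hu

omit hc in
theorem cm_of_mem {u : G} (hu : u ∈ P) : cm u P = P := cm_of_mem_normalizer (Subgroup.le_normalizer hu)

omit hc in
theorem le'_cj_of_mem {Q : Subgroup G} {f : MonoidAlgebra k G} (h : LE' p ⊤ Q f P e) {u : G} (hu : u ∈ P) :
    LE' p ⊤ (cm u Q) (PairAlg.cj u f) P e := by
  have := h.cj u
  rwa [cm_of_mem hmax hu, cj_of_mem hmax hu] at this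

theorem normalizer_le_stab {Q : Subgroup G} {f : MonoidAlgebra k G} (h : LE' p ⊤ Q f P e) :
    P ⊓ Subgroup.normalizer (Q : Set G) ≤ stab Q f := fun u hu => ⟨hu.2, by
  have h1 := le'_cj_of_mem hmax h hu.1
  rw [cm_of_mem_normalizer hu.2] at h1
  exact below_unique hc hmax.1.2.1 h1 h⟩

omit hc hmax in
theorem inf_stab_eq {Q : Subgroup G} {f : MonoidAlgebra k G} {S : Subgroup G}
    (h : S ⊓ Subgroup.normalizer (Q : Set G) ≤ stab Q f) : S ⊓ stab Q f = S ⊓ Subgroup.normalizer (Q : Set G) :=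
  le_antisymm (inf_le_inf_left S inf_le_left) (le_inf inf_le_left h)

theorem br_normalizer_ne {Q : Subgroup G} {f : MonoidAlgebra k G} (h : LE' p ⊤ Q f P e) :
    Br (P ⊓ Subgroup.normalizer (Q : Set G)) f ≠ 0 := by
  have hQR : Q ≤ P ⊓ Subgroup.normalizer (Q : Set G) := le_inf h.subgroup_le Subgroup.le_normalizer
  obtain ⟨a, ha⟩ := exists_below hc hmax.1.2.1 (inf_le_left : P ⊓ Subgroup.normalizer (Q : Set G) ≤ P)
  obtain ⟨f', hf'⟩ := exists_below hc (ha.isPair hmax.1.2.1) hQR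
  obtain rfl := below_unique hc hmax.1.2.1 (hf'.trans ha) h
  have hs := LE'.nstep hc (ha.isPair hmax.1.2.1) hf' inf_le_right
  intro h0
  exact hs.right.blk.ne (by rw [← hs.mul, h0, mul_zero])

theorem br_inf_ne {Q : Subgroup G} {f : MonoidAlgebra k G} (h : LE' p ⊤ Q f P e) {K : Subgroup G}
    (hK : K ≤ Subgroup.normalizer (Q : Set G)) : Br (P ⊓ K) f ≠ 0 :=
  br_ne_of_le (inf_le_inf_left P hK) (br_normalizer_ne hc hmax h)

theorem card_inf_le {Q : Subgroup G} {f : MonoidAlgebra k G} (h : LE' p ⊤ Q f P e) {K : Subgroup G}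
    (hK : K ≤ Subgroup.normalizer (Q : Set G)) : Nat.card ↥(P ⊓ K) ≤ dmax p K f :=
  le_dmax (hmax.1.2.1.isP.to_le inf_le_left) inf_le_right (br_inf_ne hc hmax h hK)

theorem card_inf_le_conj {Q : Subgroup G} {f : MonoidAlgebra k G} {K : Subgroup G}
    (hK : K ≤ Subgroup.normalizer (Q : Set G)) {x : G} (h : LE' p ⊤ (cm x Q) (PairAlg.cj x f) P e) :
    Nat.card ↥(P ⊓ cm x K) ≤ dmax p K f := by
  rw [← dmax_cm x K f]
  exact card_inf_le hc hmax h (by rw [← cm_normalizer]; exact cm_mono hK)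

/-- Some conjugate is full. -/
theorem exists_full {Q : Subgroup G} {f : MonoidAlgebra k G} (h : LE' p ⊤ Q f P e) {K : Subgroup G}
    (hK : K ≤ stab Q f) :
    ∃ x, LE' p ⊤ (cm x Q) (PairAlg.cj x f) P e ∧ Nat.card ↥(P ⊓ cm x K) = dmax p K f := by
  have hp : IsPair p ⊤ Q f := h.isPair hmax.1.2.1
  obtain ⟨D, hD, hDK, hne, hcard⟩ := exists_dmax (p := p) K hp.blk.ne
  set R := Q ⊔ D with hR
  have hDT : D ≤ stab Q f := hDK.trans hK
  have hRp : IsPGroup p R := hp.isP.to_sup_of_normal_left' hD (hDT.trans inf_le_left)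
  have hRN : R ≤ Subgroup.normalizer (Q : Set G) := sup_le Subgroup.le_normalizer (hDT.trans inf_le_left)
  have hRF : Fix R f := fun u hu => (sup_le (le_stab hp) hDT hu).2
  obtain ⟨x, hx⟩ : ∃ x, (Br D f).coeff x ≠ 0 := by
    by_contra hcon
    push Not at hcon
    exact hne (MonoidAlgebra.ext (Finsupp.ext hcon))
  have hxD : x ∈ Subgroup.centralizer (D : Set G) := supp_cut _ _ x hx
  rw [Br, coeff_cut_of_mem _ hxD] at hx
  have hxR : x ∈ Subgroup.centralizer (R : Set G) := by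
    have hle : R ≤ Subgroup.centralizer ({x} : Set G) := sup_le
      (fun u hu => Subgroup.mem_centralizer_singleton_iff.2
        (Subgroup.mem_centralizer_iff.1 (hp.blk.cen.1 x hx).2 u hu))
      (fun u hu => Subgroup.mem_centralizer_singleton_iff.2 (Subgroup.mem_centralizer_iff.1 hxD u hu))
    exact Subgroup.mem_centralizer_iff.2 fun u hu => Subgroup.mem_centralizer_singleton_iff.1 (hle hu)
  have hneR : Br R f ≠ 0 := fun h0 => hx (by
    have := congrArg (fun t : MonoidAlgebra k G => t.coeff x) h0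
    simpa [Br, coeff_cut_of_mem _ hxR] using this)
  obtain ⟨g, hg, hm⟩ := exists_blk_le hc (K := CH ⊤ R) hneR (cenIn_br le_sup_left hp.blk.cen)
    (by rw [← br_mul hRp hRF hRF, hp.blk.idem])
  have hs : NStep p ⊤ Q f R g := ⟨hp, ⟨hRp, le_top, hg⟩, le_sup_left, hRN, hRF, hm⟩
  have hof : OfBlk p ⊤ E R g := (ofBlk_iff_of_nstep hc hs).2 ((ofBlk_iff_of_le hc h).1 hmax.1)
  obtain ⟨S, a, hSmax, hSle⟩ := exists_max hof
  obtain ⟨y, -, hy1, hy2⟩ := max_conj hc hSmax hmax
  have h1 := (hs.le'.trans hSle).cj y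
  rw [show cm y S = P from hy1.symm, ← hy2] at h1
  refine ⟨y, h1, le_antisymm (card_inf_le_conj hc hmax (hK.trans inf_le_left) h1) ?_⟩
  rw [← hcard, ← card_cm y D]
  refine Subgroup.card_le_of_le (le_inf ?_ (cm_mono hDK))
  exact hy1.symm ▸ cm_mono ((le_sup_right : D ≤ R).trans hSle.subgroup_le)

/-- Extension from a full subpair. -/
theorem exists_extension {Q : Subgroup G} {f : MonoidAlgebra k G} (h : LE' p ⊤ Q f P e)
    (hfull : Nat.card ↥(P ⊓ Subgroup.normalizer (Q : Set G)) = dmax p (stab Q f) f)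
    {X : Subgroup G} {a : MonoidAlgebra k G} (hX : NStep p ⊤ Q f X a)
    (hXK : X ≤ (P ⊓ Subgroup.normalizer (Q : Set G)) ⊔ Subgroup.centralizer (Q : Set G)) :
    ∃ c ∈ Subgroup.centralizer (Q : Set G), LE' p ⊤ (cm c X) (PairAlg.cj c a) P e := by
  set S := P ⊓ Subgroup.normalizer (Q : Set G) with hS
  set K := S ⊔ Subgroup.centralizer (Q : Set G) with hK
  have hp : IsPair p ⊤ Q f := hX.left
  have hQS : Q ≤ S := le_inf h.subgroup_le Subgroup.le_normalizer
  have hKT : K ≤ stab Q f := sup_le (normalizer_le_stab hc hmax h) (centralizer_le_stab hp)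
  have hblk : IsBlk K f := isBlk_of_stab hp (hQS.trans le_sup_left) le_sup_right hKT
  have hCR : ∀ R : Subgroup G, Q ≤ R → Subgroup.centralizer (R : Set G) ≤ K :=
    fun R hR => (Subgroup.centralizer_le hR).trans le_sup_right
  obtain ⟨eS, heS⟩ := exists_below hc hmax.1.2.1 (inf_le_left : S ≤ P)
  have heSp := heS.isPair hmax.1.2.1
  have hsS : NStep p ⊤ Q f S eS := by
    obtain ⟨f', hf'⟩ := exists_below hc heSp hQS
    obtain rfl := below_unique hc hmax.1.2.1 (hf'.trans heS) h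
    exact LE'.nstep hc heSp hf' inf_le_right
  have hSK : IsMax p K f S eS := by
    refine ⟨⟨hblk, heSp.to_sub le_sup_left (hCR S hQS), hsS.mul⟩, fun R g hR hle => ?_⟩
    have h1 : Nat.card R ≤ Nat.card S := by
      rw [hfull]
      exact le_dmax hR.2.1.isP (hR.2.1.le.trans hKT) hR.br_ne
    exact (Subgroup.eq_of_le_of_card_ge hle.subgroup_le h1).symm
  obtain ⟨X', a', hX'max, hX'le⟩ := exists_max
    (⟨hblk, hX.right.to_sub hXK (hCR X hX.le), hX.mul⟩ : OfBlk p K f X a)
  obtain ⟨y, hyK, hy1, hy2⟩ := max_conj hc hX'max hSK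
  have hy' : y ∈ (S : Set G) * (Subgroup.centralizer (Q : Set G) : Set G) := by
    rw [← Subgroup.coe_mul_of_left_le_normalizer_right]
    · exact hyK
    · intro u hu
      exact mem_normalizer_of_cm (by rw [cm_centralizer, cm_of_mem_normalizer hu.2])
  obtain ⟨s, hs, c, hcC, rfl⟩ := Set.mem_mul.1 hy'
  refine ⟨c, hcC, ?_⟩
  have h2 := (hX'le.of_sub (hCR X hX.le)).cj c
  have e1 : cm c X' = S := by
    have : cm s (cm c X') = cm s S := by
      rw [cm_cm]
      exact hy1.symm.trans (cm_of_mem_normalizer (Subgroup.le_normalizer hs)).symm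
    exact Subgroup.map_injective (MulAut.conj s).injective this
  have e2 : PairAlg.cj c a' = eS := cj_injective s (by rw [cj_cj, ← hy2, heSp.fix s hs])
  rw [e1, e2] at h2
  exact h2.trans heS

omit hc in
theorem Mv.of_mem {Q : Subgroup G} {f : MonoidAlgebra k G} (h : LE' p ⊤ Q f P e) {u : G} (hu : u ∈ P) :
    Mv p P e u Q :=
  ⟨h.subgroup_le, f, h, le'_cj_of_mem hmax h hu⟩

theorem Mv.below {Q : Subgroup G} {g : G} (h : Mv p P e g Q) {f : MonoidAlgebra k G} (hf : LE' p ⊤ Q f P e) :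
    LE' p ⊤ (cm g Q) (PairAlg.cj g f) P e := by
  obtain ⟨-, f', hf', h'⟩ := h
  obtain rfl := below_unique hc hmax.1.2.1 hf' hf
  exact h'

omit hc hmax in
theorem Mv.le {Q : Subgroup G} {g : G} (h : Mv p P e g Q) : cm g Q ≤ P := by
  obtain ⟨-, f, -, h⟩ := h
  exact h.subgroup_le

theorem Mv.comp {Q : Subgroup G} {g g' : G} (h : Mv p P e g Q) (h' : Mv p P e g' (cm g Q)) :
    Mv p P e (g' * g) Q := by
  obtain ⟨hQ, f, hf, hg⟩ := h
  refine ⟨hQ, f, hf, ?_⟩
  rw [← cm_cm, ← cj_cj]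
  exact Mv.below hc hmax h' hg

omit hc hmax in
theorem Mv.inv {Q : Subgroup G} {g : G} (h : Mv p P e g Q) : Mv p P e g⁻¹ (cm g Q) := by
  obtain ⟨hQ, f, hf, hg⟩ := h
  refine ⟨hg.subgroup_le, _, hg, ?_⟩
  rw [cm_cm, inv_mul_cancel, cm_one, cj_inv_cj]
  exact hf

theorem Mv.mono {Q R : Subgroup G} {g : G} (h : Mv p P e g Q) (hR : R ≤ Q) : Mv p P e g R := by
  obtain ⟨hQ, f, hf, hg⟩ := h
  obtain ⟨f', hf'⟩ := exists_below hc (hf.isPair hmax.1.2.1) hR
  exact ⟨hR.trans hQ, f', hf'.trans hf, (hf'.cj g).trans hg⟩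

omit hc in
theorem Mv.mul_centralizer {Q : Subgroup G} {g c : G} (h : Mv p P e g Q)
    (hcC : c ∈ Subgroup.centralizer (Q : Set G)) : Mv p P e (g * c) Q := by
  obtain ⟨hQ, f, hf, hg⟩ := h
  refine ⟨hQ, f, hf, ?_⟩
  have h1 := centralizer_le_stab (hf.isPair hmax.1.2.1) hcC
  rw [← cm_cm, ← cj_cj, cm_of_mem_normalizer h1.1, mem_stabOf.1 h1.2]
  exact hg

end CfsgLib.PairAlg
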