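import Cfsg.Prelude.Def_BlockFusion
import Cfsg.Agent.Blocks.PairAlg.Full

/-!
# Brauer pairs, their stabilizers and conjugation maps, at the level of the group
-/

set_option autoImplicit false
set_option linter.unusedSectionVars false
set_option linter.style.haveILetI false

namespace CfsgLib.PairAlg

open Cfsg CfsgLib.Blocks CfsgLib.CharBasics

attribute [local instance] residueField residue_charP

universe u

variable {p : ℕ} {M : Ideal AlgInt} {G : Type u} [Group G] [Fintype G]

noncomputable local instance instFintypeSubgroupLoc (K : Subgroup G) : Fintype K := Fintype.ofFinite K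

/-- The reduced idempotent of a set of characters of a centralizer. -/
noncomputable def bc (hM : IsPModular p M) (Q : Subgroup G)
    (f : Set (IrrCharacter (Subgroup.centralizer (Q : Set G)))) : MonoidAlgebra (Residue hM) G :=
  bl hM (Subgroup.centralizer (Q : Set G)).subtype f

/-- The reduced idempotent of a set of characters of the group. -/
noncomputable def bG (hM : IsPModular p M) (B : Set (IrrCharacter G)) : MonoidAlgebra (Residue hM) G :=
  bl hM (MonoidHom.id G) B

theorem id_injective : Function.Injective (MonoidHom.id G) := fun _ _ h => h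

theorem range_id : (MonoidHom.id G).range = (⊤ : Subgroup G) := MonoidHom.range_eq_top.2 fun g => ⟨g, rfl⟩

variable [Fact p.Prime] (hM : IsPModular p M)
include hM

theorem bl_id_comp (Q : Subgroup G) (f : Set (IrrCharacter (Subgroup.centralizer (Q : Set G)))) :
    bl hM ((MonoidHom.id G).comp (Subgroup.centralizer (Q : Set G)).subtype) f = bc hM Q f := rfl

theorem isPair_bc {Q : Subgroup G} {f : Set (IrrCharacter (Subgroup.centralizer (Q : Set G)))}
    (h : IsBrauerPair p M Q f) : IsPair p ⊤ Q (bc hM Q f) := by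
  have := isPair_bl hM (MonoidHom.id G) id_injective h
  rwa [range_id, Subgroup.map_id, bl_id_comp] at this

theorem exists_bc {Q : Subgroup G} {a : MonoidAlgebra (Residue hM) G} (h : IsPair p ⊤ Q a) :
    ∃ f, IsBrauerPair p M Q f ∧ bc hM Q f = a := by
  obtain ⟨f, hf, he⟩ := exists_bl hM (Subgroup.centralizer (Q : Set G)).subtype
    (Subgroup.centralizer (Q : Set G)).subtype_injective (by rw [Subgroup.range_subtype, CH_top]) h.blk
  exact ⟨f, ⟨h.isP, hf⟩, he⟩

theorem bc_inj {Q : Subgroup G} {f f' : Set (IrrCharacter (Subgroup.centralizer (Q : Set G)))}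
    (hf : IsPBlock M f) (hf' : IsPBlock M f') (h : bc hM Q f = bc hM Q f') : f = f' :=
  bl_inj hM _ (Subgroup.centralizer (Q : Set G)).subtype_injective hf hf' h

theorem isBrauerPairOf_iff_bc {B : Set (IrrCharacter G)} (hB : IsPBlock M B) {Q : Subgroup G}
    {f : Set (IrrCharacter (Subgroup.centralizer (Q : Set G)))} (h : IsBrauerPair p M Q f) :
    IsBrauerPairOf p M B Q f ↔ OfBlk p ⊤ (bG hM B) Q (bc hM Q f) := by
  have := isBrauerPairOf_iff_ofBlk hM (MonoidHom.id G) id_injective hB h
  rwa [range_id, Subgroup.map_id, bl_id_comp] at this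

theorem nstep_bc_iff {Q P : Subgroup G} {f : Set (IrrCharacter (Subgroup.centralizer (Q : Set G)))}
    {e : Set (IrrCharacter (Subgroup.centralizer (P : Set G)))} (hQf : IsBrauerPair p M Q f)
    (hPe : IsBrauerPair p M P e) :
    IsNormalSubpair p M Q f P e ↔ NStep p ⊤ Q (bc hM Q f) P (bc hM P e) := by
  have := nstep_iff hM (MonoidHom.id G) id_injective hQf hPe
  rwa [range_id, Subgroup.map_id, Subgroup.map_id, bl_id_comp, bl_id_comp] at this

theorem le'_of_subpairLE {Q P : Subgroup G} {f : Set (IrrCharacter (Subgroup.centralizer (Q : Set G)))}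
    {e : Set (IrrCharacter (Subgroup.centralizer (P : Set G)))} (h : SubpairLE p M Q f P e)
    (hPe : IsBrauerPair p M P e) : IsBrauerPair p M Q f ∧ LE' p ⊤ Q (bc hM Q f) P (bc hM P e) := by
  have key : ∀ a : BrauerPairIdx G, Relation.ReflTransGen (NormalSubpairRel p M) a ⟨P, e⟩ →
      IsBrauerPair p M a.1 a.2 ∧ LE' p ⊤ a.1 (bc hM a.1 a.2) P (bc hM P e) := by
    intro a ha
    induction ha using Relation.ReflTransGen.head_induction_on with
    | refl => exact ⟨hPe, LE'.refl⟩
    | head hh _ ih => exact ⟨hh.1, ((nstep_bc_iff hM hh.1 hh.2.1).1 hh).le'.trans ih.2⟩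
  exact key ⟨Q, f⟩ h

theorem subpairLE_of_le' {Q P : Subgroup G} {f : Set (IrrCharacter (Subgroup.centralizer (Q : Set G)))}
    {e : Set (IrrCharacter (Subgroup.centralizer (P : Set G)))} (hQf : IsBrauerPair p M Q f)
    (hPe : IsBrauerPair p M P e) (h : LE' p ⊤ Q (bc hM Q f) P (bc hM P e)) : SubpairLE p M Q f P e := by
  suffices ∀ {R : Subgroup G} {a : MonoidAlgebra (Residue hM) G}, LE' p ⊤ R a P (bc hM P e) →
      ∀ g, IsBrauerPair p M R g → bc hM R g = a → SubpairLE p M R g P e from this h f hQf rfl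
  intro R a hRa
  refine le'_induction (motive := fun R a => ∀ g, IsBrauerPair p M R g → bc hM R g = a → SubpairLE p M R g P e)
    (fun g hg he => ?_) (fun R a S b hs _ ih g hg he => ?_) hRa
  · rw [bc_inj hM hg.2 hPe.2 he]
    exact Relation.ReflTransGen.refl
  · obtain ⟨g', hg', he'⟩ := exists_bc hM hs.right
    refine Relation.ReflTransGen.head (b := (⟨S, g'⟩ : BrauerPairIdx G)) ?_ (show Relation.ReflTransGen (NormalSubpairRel p M) _ _ from ih g' hg' he')
    exact (nstep_bc_iff hM hg hg').2 (by rw [he, he']; exact hs)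

theorem isMax_bc {B : Set (IrrCharacter G)} {P : Subgroup G}
    {e : Set (IrrCharacter (Subgroup.centralizer (P : Set G)))} (h : IsMaximalBrauerPair p M B P e) :
    IsMax p ⊤ (bG hM B) P (bc hM P e) := by
  refine ⟨(isBrauerPairOf_iff_bc hM h.1.2.1 h.1.1).1 h.1, fun R a hR hle => ?_⟩
  obtain ⟨g, hg, rfl⟩ := exists_bc hM hR.2.1
  exact h.2 R g ((isBrauerPairOf_iff_bc hM h.1.2.1 hg).2 hR) (subpairLE_of_le' hM h.1.1 hg hle)

omit hM in
/-- The isomorphism of centralizers induced by conjugation. -/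
def conjC (Q : Subgroup G) (x : G) :
    Subgroup.centralizer (Q : Set G) ≃* Subgroup.centralizer ((Q.map (MulAut.conj x).toMonoidHom : Subgroup G) : Set G) where
  toFun c := ⟨x * c * x⁻¹, by
    show _ ∈ Subgroup.centralizer ((cm x Q : Subgroup G) : Set G)
    rw [← cm_centralizer]
    exact conj_mem_cm.2 c.2⟩
  invFun c := ⟨x⁻¹ * c * x, by
    have h : (c : G) ∈ Subgroup.centralizer ((cm x Q : Subgroup G) : Set G) := c.2
    rw [← cm_centralizer, mem_cm] at h
    exact h⟩
  left_inv c := Subtype.ext (by simp [mul_assoc])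
  right_inv c := Subtype.ext (by simp [mul_assoc])
  map_mul' a b := Subtype.ext (show x * ((a : G) * (b : G)) * x⁻¹ = (x * (a : G) * x⁻¹) * (x * (b : G) * x⁻¹) by group)

theorem conjBlock_eq (Q : Subgroup G) (x : G) (f : Set (IrrCharacter (Subgroup.centralizer (Q : Set G)))) :
    conjBlock Q x f = pushBlock (conjC Q x) f := by
  ext ξ'
  constructor
  · rintro ⟨ξ, hξ, h⟩
    refine ⟨ξ, hξ, Subtype.ext (funext fun c' => ?_)⟩
    rw [pushChar_apply]
    exact (h ((conjC Q x).symm c') c' (by
      show (c' : G) = x * (x⁻¹ * (c' : G) * x) * x⁻¹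
      group)).symm
  · rintro ⟨ξ, hξ, rfl⟩
    refine ⟨ξ, hξ, fun c c' h => ?_⟩
    rw [show c' = conjC Q x c from Subtype.ext h, pushChar_apply, MulEquiv.symm_apply_apply]

theorem isBrauerPair_conjBlock {Q : Subgroup G} {f : Set (IrrCharacter (Subgroup.centralizer (Q : Set G)))}
    (h : IsBrauerPair p M Q f) (x : G) : IsBrauerPair p M (cm x Q) (conjBlock Q x f) := by
  refine ⟨isPGroup_cm h.1, ?_⟩
  rw [conjBlock_eq hM]
  exact isPBlock_pushBlock (conjC Q x) h.2

theorem bc_conjBlock (Q : Subgroup G) (x : G) (f : Set (IrrCharacter (Subgroup.centralizer (Q : Set G)))) :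
    bc hM (cm x Q) (conjBlock Q x f) = cj x (bc hM Q f) := by
  rw [conjBlock_eq hM]
  exact (cj_bl hM (Subgroup.centralizer (Q : Set G)).subtype (Subgroup.centralizer (Q : Set G)).subtype_injective
    (Subgroup.centralizer ((Q.map (MulAut.conj x).toMonoidHom : Subgroup G) : Set G)).subtype (conjC Q x) x
    (fun _ => rfl) f).symm

theorem subpairLE_conjBlock_iff {Q P : Subgroup G} {f : Set (IrrCharacter (Subgroup.centralizer (Q : Set G)))}
    {e : Set (IrrCharacter (Subgroup.centralizer (P : Set G)))} (hQf : IsBrauerPair p M Q f)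
    (hPe : IsBrauerPair p M P e) (x : G) :
    SubpairLE p M (Q.map (MulAut.conj x).toMonoidHom) (conjBlock Q x f) P e ↔
      LE' p ⊤ (cm x Q) (cj x (bc hM Q f)) P (bc hM P e) := by
  rw [← bc_conjBlock hM]
  exact ⟨fun h => (le'_of_subpairLE hM h hPe).2,
    fun h => subpairLE_of_le' hM (isBrauerPair_conjBlock hM hQf x) hPe h⟩

theorem stabilizesBlock_bc_iff {Q : Subgroup G} {f : Set (IrrCharacter (Subgroup.centralizer (Q : Set G)))}
    (hf : IsPBlock M f) {x : G} (hx : x ∈ Subgroup.normalizer (Q : Set G)) :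
    StabilizesBlock (Subgroup.centralizer (Q : Set G)) f x ↔ cj x (bc hM Q f) = bc hM Q f := by
  rw [stabilizesBlock_iff_cj hM (MonoidHom.id G) id_injective hf, bl_id_comp]
  exact ⟨fun h => h.2, fun h => ⟨le_normalizer_centralizer Q hx, h⟩⟩

theorem stab_eq {Q : Subgroup G} {f : Set (IrrCharacter (Subgroup.centralizer (Q : Set G)))} (hf : IsPBlock M f)
    {T : Subgroup G} (hT : ∀ y : G, y ∈ T ↔ y ∈ Subgroup.normalizer (Q : Set G) ∧
      StabilizesBlock (Subgroup.centralizer (Q : Set G)) f y) : T = stab Q (bc hM Q f) := by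
  ext y
  rw [hT, stab, Subgroup.mem_inf, mem_stabOf]
  exact ⟨fun h => ⟨h.1, (stabilizesBlock_bc_iff hM hf h.1).1 h.2⟩,
    fun h => ⟨h.1, (stabilizesBlock_bc_iff hM hf h.1).2 h.2⟩⟩

/-- Defect groups of blocks of a subgroup, inside the group. -/
theorem isDefectGroup_sub_iff {H : Subgroup G} {F : Set (IrrCharacter H)} (hF : IsPBlock M F) {D : Subgroup G}
    (hD : IsPGroup p D) (hDH : D ≤ H) :
    IsDefectGroup p M F (D.subgroupOf H) ↔
      Br D (bl hM H.subtype F) ≠ 0 ∧ Nat.card D = dmax p H (bl hM H.subtype F) := by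
  rw [isDefectGroup_iff hM H.subtype H.subtype_injective hF, Subgroup.range_subtype,
    Subgroup.map_subgroupOf_eq_of_le hDH, Nat.card_congr (Subgroup.subgroupOfEquivOfLe hDH).toEquiv]
  exact ⟨fun h => h.2, fun h => ⟨hD.of_equiv (Subgroup.subgroupOfEquivOfLe hDH).symm, h⟩⟩

theorem exists_defectGroup_sub_ge {H : Subgroup G} {F : Set (IrrCharacter H)} (hF : IsPBlock M F) {R : Subgroup G}
    (hR : IsPGroup p R) (hRH : R ≤ H) (hne : Br R (bl hM H.subtype F) ≠ 0) :
    ∃ D : Subgroup H, IsDefectGroup p M F D ∧ R.subgroupOf H ≤ D :=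
  exists_defectGroup_ge_of_br_ne hM H.subtype H.subtype_injective hF
    (hR.of_equiv (Subgroup.subgroupOfEquivOfLe hRH).symm) (by rwa [Subgroup.map_subgroupOf_eq_of_le hRH])

/-- A stable class idempotent of a bigger subgroup with the same reduction is the same. -/
theorem eq_of_up_eq {A : Type*} [Group A] [Fintype A] (ι : A →* G) (hι : Function.Injective ι)
    {z w : MonoidAlgebra ℂ A} (hz : IsClassElt z) (hw : IsClassElt w) (hzi : IsIntegralElt M z)
    (hwi : IsIntegralElt M w) (hz2 : z * z = z) (hw2 : w * w = w) (h : up hM ι z = up hM ι w) : z = w := by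
  refine eq_of_omega_eq hz hw fun χ => ?_
  have h01 : ∀ {v : MonoidAlgebra ℂ A}, IsClassElt v → v * v = v →
      omega (χ : A → ℂ) v = 0 ∨ omega (χ : A → ℂ) v = 1 := by
    intro v hv hv2
    have e := omega_mul χ.2 hv (z := v) (w := v)
    rw [hv2] at e
    rcases eq_or_ne (omega (χ : A → ℂ) v) 0 with h0 | h0
    · exact Or.inl h0
    · exact Or.inr (mul_left_cancel₀ h0 (by rw [← e, mul_one]))
  have hsm : MemLocalIdeal M (omega (χ : A → ℂ) z - omega (χ : A → ℂ) w) := by
    rw [← omega_sub]
    refine ZStar.memLocalIdeal_omega hM χ (hz.sub hw) fun a => ?_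
    rw [MonoidAlgebra.coeff_sub, Finsupp.sub_apply, ← rd_congr hM (hzi a) (hwi a), ← coeff_up hM ι hι,
      ← coeff_up hM ι hι, h]
  rcases h01 hz hz2 with h1 | h1 <;> rcases h01 hw hw2 with h2 | h2 <;> rw [h1, h2] at hsm ⊢
  · exact absurd (by simpa using memLocalIdeal_neg hsm) (not_memLocalIdeal_one hM)
  · exact absurd (by simpa using hsm) (not_memLocalIdeal_one hM)

/-- The idempotent of a stable block of a centralizer is a block idempotent of an intermediate subgroup. -/
theorem exists_stabBlock {Q T : Subgroup G} {f : Set (IrrCharacter (Subgroup.centralizer (Q : Set G)))}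
    (hQf : IsBrauerPair p M Q f) (hQT : Q ≤ T) (hCT : Subgroup.centralizer (Q : Set G) ≤ T)
    (hT : T ≤ stab Q (bc hM Q f)) :
    (∃ F : Set (IrrCharacter T), IsPBlock M F ∧
      ∀ t : T, blockCoeff F t = subgroupBlockCoeff (Subgroup.centralizer (Q : Set G)) f (t : G)) ∧
      ∀ F : Set (IrrCharacter T), (∀ t : T, blockCoeff F t = subgroupBlockCoeff (Subgroup.centralizer (Q : Set G)) f (t : G)) →
        bl hM T.subtype F = bc hM Q f := by
  classical
  set w : MonoidAlgebra ℂ T := MonoidAlgebra.mapDomainRingHom ℂ (Subgroup.inclusion hCT) (blockElt f) with hw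
  have hwc : ∀ t : T, w.coeff t = subgroupBlockCoeff (Subgroup.centralizer (Q : Set G)) f (t : G) := by
    intro t
    by_cases ht : (t : G) ∈ Subgroup.centralizer (Q : Set G)
    · rw [subgroupBlockCoeff, dif_pos ht, ← coeff_blockElt f]
      show (Finsupp.mapDomain _ _) t = _
      conv_lhs => rw [show t = Subgroup.inclusion hCT ⟨(t : G), ht⟩ from rfl]
      exact Finsupp.mapDomain_apply (Subgroup.inclusion_injective hCT) _ _
    · rw [subgroupBlockCoeff, dif_neg ht]
      refine Finsupp.mapDomain_of_notMem_range (f := Subgroup.inclusion hCT) _ t ?_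
      rintro ⟨c, rfl⟩
      exact ht c.2
  have hupw : up hM T.subtype w = bc hM Q f := by
    ext g
    by_cases hg : g ∈ T
    · rw [show g = T.subtype ⟨g, hg⟩ from rfl, coeff_up hM _ T.subtype_injective, hwc, bc, bl]
      by_cases hgc : g ∈ Subgroup.centralizer (Q : Set G)
      · rw [show T.subtype ⟨g, hg⟩ = (Subgroup.centralizer (Q : Set G)).subtype ⟨g, hgc⟩ from rfl,
          coeff_up hM _ (Subgroup.centralizer (Q : Set G)).subtype_injective, subgroupBlockCoeff]
        rw [dif_pos hgc, coeff_blockElt]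
      · rw [subgroupBlockCoeff, dif_neg hgc, rd_zero, coeff_up_of_notMem hM]
        rw [Subgroup.range_subtype]; exact hgc
    · rw [coeff_up_of_notMem hM _ _ (by rw [Subgroup.range_subtype]; exact hg), bc, bl, coeff_up_of_notMem hM]
      rw [Subgroup.range_subtype]; exact fun h => hg (hCT h)
  have hwi : IsIntegralElt M w := fun t => by
    rw [hwc, subgroupBlockCoeff]
    split_ifs
    · exact memLocalRing_blockCoeff hM hQf.2 _
    · exact memLocalRing_zero hM
  have hwcl : IsClassElt w := by
    intro t u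
    simp only [hwc, Subgroup.coe_mul, Subgroup.coe_inv]
    have hu := hT u.2
    have hst := (stabilizesBlock_bc_iff hM hQf.2 hu.1).2 hu.2
    by_cases ht : (t : G) ∈ Subgroup.centralizer (Q : Set G)
    · have ht' := (Subgroup.mem_normalizer_iff.1 hst.1 (t : G)).1 ht
      rw [subgroupBlockCoeff, subgroupBlockCoeff, dif_pos ht, dif_pos ht']
      exact blockCoeff_of_stable hst _ _ rfl
    · have ht' : (u : G) * t * (u : G)⁻¹ ∉ Subgroup.centralizer (Q : Set G) :=
        fun h => ht ((Subgroup.mem_normalizer_iff.1 hst.1 (t : G)).2 h)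
      rw [subgroupBlockCoeff, subgroupBlockCoeff, dif_neg ht, dif_neg ht']
  have hw2 : w * w = w := by rw [hw, ← map_mul, (isIdempotentElem_blockElt f).eq]
  obtain ⟨F, hF, hFe⟩ := exists_bl hM T.subtype T.subtype_injective (Subgroup.range_subtype T)
    (isBlk_of_stab (isPair_bc hM hQf) hQT hCT hT)
  have heq : blockElt F = w := eq_of_up_eq hM T.subtype T.subtype_injective (isClassElt_blockElt F) hwcl
    (isIntegralElt_blockElt hM hF) hwi (isIdempotentElem_blockElt F).eq hw2 (hFe.trans hupw.symm)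
  refine ⟨⟨F, hF, fun t => by rw [← coeff_blockElt, heq, hwc]⟩, fun F' hF' => ?_⟩
  have : blockElt F' = w := MonoidAlgebra.ext (Finsupp.ext fun t => by rw [coeff_blockElt, hF', hwc])
  rw [bl, this, hupw]

end CfsgLib.PairAlg
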