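import Cfsg.Agent.Blocks.PairAlg.GLevel

/-!
# The index of the centralizer of a defect element in the stabilizer of a local block
-/

set_option autoImplicit false
set_option linter.unusedSectionVars false
set_option linter.style.haveILetI false

namespace CfsgLib.PairAlg

open scoped Pointwise

theorem relIndex_map_dvd {G G' : Type*} [Group G] [Group G'] (φ : G →* G') {S W : Subgroup G} (h : S ≤ W) :
    (S.map φ).relIndex (W.map φ) ∣ S.relIndex W := by
  have hf := MonoidHom.subgroupMap_surjective φ W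
  have e : (S.map φ).subgroupOf (W.map φ) = (S.subgroupOf W).map (φ.subgroupMap W) := by
    ext ⟨y, hy⟩
    constructor
    · rintro ⟨s, hs, hsy⟩
      exact ⟨⟨s, h hs⟩, hs, Subtype.ext hsy⟩
    · rintro ⟨⟨s, hsW⟩, hs, hsy⟩
      exact ⟨s, hs, congrArg Subtype.val hsy⟩
  show ((S.map φ).subgroupOf (W.map φ)).index ∣ (S.subgroupOf W).index
  rw [e]
  exact (S.subgroupOf W).index_map_dvd hf

section Orbit

variable {k : Type*} [Field k] {G : Type*} [Group G] [Fintype G] {p : ℕ} [CharP k p]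

theorem not_dvd_relIndex_of_scalar {T C : Subgroup G} {f : MonoidAlgebra k G} (hf : IsBlk C f) (hCT : C ≤ T)
    (hnorm : ∀ t ∈ T, cm t C = C) (hTf : Fix T f) {g : G} (hg : g ∈ C) {z : MonoidAlgebra k G}
    (hz1 : ∀ x, (∃ t ∈ T, t * g * t⁻¹ = x) → z.coeff x = 1)
    (hz0 : ∀ x, (¬ ∃ t ∈ T, t * g * t⁻¹ = x) → z.coeff x = 0)
    {c : k} (hc : IsNilpotent (f * z - c • f)) (hc0 : c ≠ 0) :
    ¬ p ∣ ((T ⊓ Subgroup.centralizer ({g} : Set G)) ⊔ C).relIndex T := by
  classical
  intro hdvd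
  set z0 : MonoidAlgebra k G :=
    MonoidAlgebra.ofCoeff (Finsupp.equivFunOnFinite.symm fun x => if ∃ u ∈ C, u * g * u⁻¹ = x then (1 : k) else 0) with hz0d
  have hcoeff : ∀ x, z0.coeff x = if ∃ u ∈ C, u * g * u⁻¹ = x then 1 else 0 := fun x => rfl
  have hTn : ∀ t ∈ T, ∀ u ∈ C, t * u * t⁻¹ ∈ C := fun t ht u hu => by
    rw [← hnorm t ht]; exact conj_mem_cm.2 hu
  have hcoeff' : ∀ (t : T) x, (cj (t : G) z0).coeff x =
      if ∃ u ∈ C, u * ((t : G) * g * (t : G)⁻¹) * u⁻¹ = x then 1 else 0 := by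
    intro t x
    rw [coeff_cj, hcoeff]
    refine if_congr ⟨?_, ?_⟩ rfl rfl
    · rintro ⟨u, hu, he⟩
      refine ⟨(t : G) * u * (t : G)⁻¹, hTn t t.2 u hu, ?_⟩
      calc (t : G) * u * (t : G)⁻¹ * ((t : G) * g * (t : G)⁻¹) * ((t : G) * u * (t : G)⁻¹)⁻¹
          = (t : G) * (u * g * u⁻¹) * (t : G)⁻¹ := by group
        _ = _ := by rw [he]; group
    · rintro ⟨u, hu, rfl⟩
      refine ⟨(t : G)⁻¹ * u * (t : G)⁻¹⁻¹, hTn _ (T.inv_mem t.2) u hu, ?_⟩
      group
  have hz0C : CenIn C z0 := by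
    refine ⟨fun x hx => ?_, fix_of_coeff fun v hv x => ?_⟩
    · rw [hcoeff] at hx
      split_ifs at hx with h
      · obtain ⟨u, hu, rfl⟩ := h
        exact C.mul_mem (C.mul_mem hu hg) (C.inv_mem hu)
      · exact absurd rfl hx
    · rw [hcoeff, hcoeff]
      refine if_congr ⟨?_, ?_⟩ rfl rfl
      · rintro ⟨u, hu, he⟩
        refine ⟨v⁻¹ * u, C.mul_mem (C.inv_mem hv) hu, ?_⟩
        calc v⁻¹ * u * g * (v⁻¹ * u)⁻¹ = v⁻¹ * (u * g * u⁻¹) * v := by group
          _ = _ := by rw [he]; group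
      · rintro ⟨u, hu, rfl⟩
        exact ⟨v * u, C.mul_mem hv hu, by group⟩
  letI : MulAction T (MonoidAlgebra k G) :=
    { smul := fun t a => cj (t : G) a
      one_smul := fun a => cj_one_apply a
      mul_smul := fun s t a => (cj_cj (s : G) (t : G) a).symm }
  set W := (T ⊓ Subgroup.centralizer ({g} : Set G)) ⊔ C with hW
  have hWC : (W : Set G) = ((T ⊓ Subgroup.centralizer ({g} : Set G) : Subgroup G) : Set G) * (C : Set G) :=
    Subgroup.coe_mul_of_left_le_normalizer_right _ _ fun u hu => mem_normalizer_of_cm (hnorm u hu.1)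
  have hstab : MulAction.stabilizer T z0 = W.subgroupOf T := by
    ext t
    rw [MulAction.mem_stabilizer_iff, Subgroup.mem_subgroupOf]
    change cj (t : G) z0 = z0 ↔ _
    constructor
    · intro h
      have h1 := congrArg (fun a : MonoidAlgebra k G => a.coeff ((t : G) * g * (t : G)⁻¹)) h
      simp only [hcoeff', hcoeff] at h1
      rw [if_pos ⟨1, C.one_mem, by group⟩] at h1
      split_ifs at h1 with h2
      · obtain ⟨u, hu, he⟩ := h2
        have hw : u⁻¹ * (t : G) ∈ T ⊓ Subgroup.centralizer ({g} : Set G) := by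
          refine ⟨T.mul_mem (T.inv_mem (hCT hu)) t.2, Subgroup.mem_centralizer_singleton_iff.2 ?_⟩
          calc u⁻¹ * (t : G) * g = u⁻¹ * ((t : G) * g * (t : G)⁻¹) * t := by group
            _ = u⁻¹ * (u * g * u⁻¹) * t := by rw [he]
            _ = _ := by group
        rw [show (t : G) = u * (u⁻¹ * (t : G)) by group]
        exact W.mul_mem (Subgroup.mem_sup_right hu) (Subgroup.mem_sup_left hw)
      · exact absurd h1 one_ne_zero
    · intro h
      have h' : (t : G) ∈ ((T ⊓ Subgroup.centralizer ({g} : Set G) : Subgroup G) : Set G) * (C : Set G) := hWC ▸ h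
      obtain ⟨w, hw, u, hu, he⟩ := Set.mem_mul.1 h'
      rw [← he, ← cj_cj, hz0C.2 u hu]
      ext x
      rw [show (cj w z0) = cj ((⟨w, hw.1⟩ : T) : G) z0 from rfl, hcoeff', hcoeff]
      have : w * g * w⁻¹ = g := by
        rw [Subgroup.mem_centralizer_singleton_iff.1 hw.2, mul_inv_cancel_right]
      rw [this]
  have hfin : (MulAction.orbit T z0).Finite := Set.finite_range _
  set O := hfin.toFinset with hO
  have hcard : O.card = W.relIndex T := by
    rw [hO, ← Set.ncard_eq_toFinset_card _ hfin, ← MulAction.index_stabilizer, hstab]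
    rfl
  have hmemO : ∀ a ∈ O, ∃ t : T, cj (t : G) z0 = a := fun a ha => MulAction.mem_orbit_iff.1 (hfin.mem_toFinset.1 ha)
  have hzsum : z = ∑ a ∈ O, a := by
    ext x
    rw [MonoidAlgebra.coeff_sum, Finsupp.finsetSum_apply]
    by_cases hx : ∃ t ∈ T, t * g * t⁻¹ = x
    · rw [hz1 x hx]
      obtain ⟨t, ht, rfl⟩ := hx
      rw [Finset.sum_eq_single (cj t z0)]
      · rw [show (cj t z0) = cj ((⟨t, ht⟩ : T) : G) z0 from rfl, hcoeff', if_pos ⟨1, C.one_mem, by group⟩]
      · intro a ha hne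
        obtain ⟨s, rfl⟩ := hmemO a ha
        rw [hcoeff', if_neg]
        rintro ⟨u, hu, he⟩
        apply hne
        ext y
        rw [show (cj t z0) = cj ((⟨t, ht⟩ : T) : G) z0 from rfl, hcoeff', hcoeff']
        refine if_congr ⟨?_, ?_⟩ rfl rfl
        · rintro ⟨v, hv, rfl⟩
          refine ⟨v * u⁻¹, C.mul_mem hv (C.inv_mem hu), ?_⟩
          show v * u⁻¹ * (t * g * t⁻¹) * (v * u⁻¹)⁻¹ = _
          rw [← he]; group
        · rintro ⟨v, hv, rfl⟩
          refine ⟨v * u, C.mul_mem hv hu, ?_⟩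
          show _ = v * (t * g * t⁻¹) * v⁻¹
          rw [← he]; group
      · intro hn
        exact absurd ((hfin.mem_toFinset.2 ⟨⟨t, ht⟩, rfl⟩)) hn
    · rw [hz0 x hx]
      refine (Finset.sum_eq_zero fun a ha => ?_).symm
      obtain ⟨s, rfl⟩ := hmemO a ha
      rw [hcoeff', if_neg]
      rintro ⟨u, hu, rfl⟩
      exact hx ⟨u * s, T.mul_mem (hCT hu) s.2, by group⟩
  obtain ⟨c0, hc0'⟩ := hf.scal z0 hz0C
  have hcenO : ∀ a ∈ O, CenIn C a := by
    intro a ha
    obtain ⟨s, rfl⟩ := hmemO a ha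
    have := hz0C.cj (s : G)
    rwa [show C.map (MulAut.conj (s : G)).toMonoidHom = C from hnorm _ s.2] at this
  have hterm : ∀ a ∈ O, IsNilpotent (f * a - c0 • f) := by
    intro a ha
    obtain ⟨s, rfl⟩ := hmemO a ha
    have := hc0'.map (cj (k := k) (s : G))
    rwa [map_sub, map_mul, cj_smul, hTf _ s.2] at this
  have hnil : IsNilpotent (f * z) := by
    have h1 : IsNilpotent (∑ a ∈ O, (f * a - c0 • f)) := Commute.isNilpotent_sum hterm fun a b ha hb =>
      CenIn.comm ((hf.cen.mul (hcenO a ha)).sub ⟨hf.cen.1.smul c0, hf.cen.2.smul c0⟩)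
        ((hf.cen.mul (hcenO b hb)).sub ⟨hf.cen.1.smul c0, hf.cen.2.smul c0⟩).1
    rwa [Finset.sum_sub_distrib, ← Finset.mul_sum, ← hzsum, Finset.sum_const, ← Nat.cast_smul_eq_nsmul k, hcard,
      (CharP.cast_eq_zero_iff k p _).2 hdvd, zero_smul, sub_zero] at h1
  have hzc : CenIn C (f * z) := by
    rw [hzsum, Finset.mul_sum]
    exact cenIn_sum _ _ fun a ha => hf.cen.mul (hcenO a ha)
  obtain ⟨n, hn⟩ : IsNilpotent (f * z - (f * z - c • f)) :=
    Commute.isNilpotent_sub (hzc.comm (hzc.sub ⟨hf.cen.1.smul c, hf.cen.2.smul c⟩).1) hnil hc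
  rw [sub_sub_cancel] at hn
  have h1 : (c • f) ^ (n + 1) = c ^ (n + 1) • f := by rw [smul_pow, IsIdempotentElem.pow_succ_eq n hf.idem]
  rw [pow_succ, hn, zero_mul] at h1
  rcases smul_eq_zero.1 h1.symm with h2 | h2
  · exact hc0 (pow_eq_zero_iff'.1 h2).1
  · exact hf.ne h2

end Orbit

open Cfsg CfsgLib.Blocks

attribute [local instance] residueField residue_charP

noncomputable local instance instFintypeSubgroupLocIdx {G : Type*} [Group G] [Fintype G] (K : Subgroup G) :
    Fintype K := Fintype.ofFinite K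

variable {p : ℕ} [Fact p.Prime] {M : Ideal AlgInt} {G : Type*} [Group G] [Fintype G]

/-- A subgroup of largest order at which a local block survives contains a Sylow subgroup of the stabilizer modulo the
centralizer, in every quotient. -/
theorem not_dvd_map_relIndex (hM : IsPModular p M) {Q : Subgroup G}
    {f : Set (IrrCharacter (Subgroup.centralizer (Q : Set G)))} (hQf : IsBrauerPair p M Q f) {S : Subgroup G}
    (hSp : IsPGroup p S) (hS : S ≤ stab Q (bc hM Q f)) (hne : Br S (bc hM Q f) ≠ 0)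
    (hcard : Nat.card S = dmax p (stab Q (bc hM Q f)) (bc hM Q f))
    {X : Type*} [Group X] (φ : ↥(stab Q (bc hM Q f)) →* X)
    (hker : φ.ker = (Subgroup.centralizer (Q : Set G)).subgroupOf (stab Q (bc hM Q f))) :
    ¬ p ∣ ((S.subgroupOf (stab Q (bc hM Q f))).map φ).relIndex φ.range := by
  have hp := isPair_bc hM hQf
  have hCT : Subgroup.centralizer (Q : Set G) ≤ (stab Q (bc hM Q f)) := centralizer_le_stab hp
  obtain ⟨⟨F, hF, hFc⟩, huniq⟩ := exists_stabBlock hM hQf (le_stab hp) hCT le_rfl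
  have hbl := huniq F hFc
  obtain ⟨g, hg, R, hR⟩ := (isDefectGroup_sub_iff hM hF hSp hS).2 (by rw [hbl]; exact ⟨hne, hcard⟩)
  have hgC : (g : G) ∈ Subgroup.centralizer (Q : Set G) := by
    by_contra hgC
    apply hg.2.1
    rw [hFc, subgroupBlockCoeff, dif_neg hgC]
    exact memLocalIdeal_zero hM
  obtain ⟨χ, hχ⟩ := IsPBlock.nonempty hM hF
  have hnil := bl_mul_sub_nilpotent hM (stab Q (bc hM Q f)).subtype hF (isClassElt_classElt g) (isIntegralElt_classElt hM g) hχ
  rw [hbl] at hnil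
  have hc0 : rd hM (omega (χ : (stab Q (bc hM Q f)) → ℂ) (classElt g)) ≠ 0 := by
    rw [Ne, rd_eq_zero hM (memLocalRing_omega hM χ (isClassElt_classElt g) (isIntegralElt_classElt hM g)),
      omega_classElt χ.2]
    exact hg.2.2 χ hχ
  have hblk : IsBlk (Subgroup.centralizer (Q : Set G)) (bc hM Q f) := by
    have := hp.blk; rwa [CH_top] at this
  have hidx : ¬ p ∣ (((stab Q (bc hM Q f)) ⊓ Subgroup.centralizer ({(g : G)} : Set G)) ⊔ Subgroup.centralizer (Q : Set G)).relIndex (stab Q (bc hM Q f)) := by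
    refine not_dvd_relIndex_of_scalar hblk hCT (fun t ht => by rw [cm_centralizer, cm_of_mem_normalizer ht.1])
      (fun t ht => ht.2) hgC (z := up hM (stab Q (bc hM Q f)).subtype (classElt g)) (fun x hx => ?_) (fun x hx => ?_) hnil hc0
    · obtain ⟨t, ht, rfl⟩ := hx
      classical
      rw [show t * (g : G) * t⁻¹ = (stab Q (bc hM Q f)).subtype (⟨t, ht⟩ * g * (⟨t, ht⟩ : (stab Q (bc hM Q f)))⁻¹) from rfl,
        coeff_up hM _ (stab Q (bc hM Q f)).subtype_injective, coeff_classElt, if_pos (isConj_iff.2 ⟨_, rfl⟩), rd_one]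
    · classical
      by_cases hxT : x ∈ (stab Q (bc hM Q f))
      · rw [show x = (stab Q (bc hM Q f)).subtype ⟨x, hxT⟩ from rfl, coeff_up hM _ (stab Q (bc hM Q f)).subtype_injective, coeff_classElt, if_neg, rd_zero]
        intro hcj
        obtain ⟨t, ht⟩ := isConj_iff.1 hcj
        exact hx ⟨t, t.2, congrArg Subtype.val ht⟩
      · exact coeff_up_of_notMem hM _ _ (by rw [Subgroup.range_subtype]; exact hxT)
  set S' := S.subgroupOf (stab Q (bc hM Q f)) with hS'
  have hSW : S' ≤ (Subgroup.centralizer ({g} : Set ↥(stab Q (bc hM Q f)))) := by rw [hR]; exact Subgroup.map_subtype_le _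
  have h1 : ¬ p ∣ S'.relIndex (Subgroup.centralizer ({g} : Set ↥(stab Q (bc hM Q f)))) := by
    rw [hR]
    show ¬ p ∣ (((R : Subgroup (Subgroup.centralizer ({g} : Set ↥(stab Q (bc hM Q f))))).map (Subgroup.centralizer ({g} : Set ↥(stab Q (bc hM Q f)))).subtype).comap (Subgroup.centralizer ({g} : Set ↥(stab Q (bc hM Q f)))).subtype).index
    rw [Subgroup.comap_map_eq_self_of_injective (Subgroup.centralizer ({g} : Set ↥(stab Q (bc hM Q f)))).subtype_injective]
    exact R.not_dvd_index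
  have h2 : ¬ p ∣ ((Subgroup.centralizer ({g} : Set ↥(stab Q (bc hM Q f)))).map φ).relIndex φ.range := by
    rw [MonoidHom.range_eq_map, Subgroup.relIndex_map_map, top_sup_eq, Subgroup.relIndex_top_right, hker]
    have e : (Subgroup.centralizer ({g} : Set ↥(stab Q (bc hM Q f)))) ⊔ (Subgroup.centralizer (Q : Set G)).subgroupOf (stab Q (bc hM Q f)) =
        (((stab Q (bc hM Q f)) ⊓ Subgroup.centralizer ({(g : G)} : Set G)) ⊔ Subgroup.centralizer (Q : Set G)).subgroupOf (stab Q (bc hM Q f)) := by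
      rw [Subgroup.subgroupOf_sup inf_le_left hCT]
      congr 1
      ext t
      simp only [Subgroup.mem_subgroupOf, Subgroup.mem_inf, Subgroup.mem_centralizer_singleton_iff, SetLike.coe_mem,
        true_and]
      exact ⟨fun h => congrArg Subtype.val h, fun h => Subtype.ext h⟩
    rw [e]
    exact hidx
  have h3 : (S'.map φ).relIndex ((Subgroup.centralizer ({g} : Set ↥(stab Q (bc hM Q f)))).map φ) * ((Subgroup.centralizer ({g} : Set ↥(stab Q (bc hM Q f)))).map φ).relIndex φ.range = (S'.map φ).relIndex φ.range :=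
    Subgroup.relIndex_mul_relIndex _ _ _ (Subgroup.map_mono hSW) (by rw [MonoidHom.range_eq_map]; exact Subgroup.map_mono le_top)
  rw [← h3]
  intro hdvd
  rcases (Fact.out : p.Prime).dvd_mul.1 hdvd with h | h
  · exact h1 (h.trans (relIndex_map_dvd φ hSW))
  · exact h2 h

end CfsgLib.PairAlg
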