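import Cfsg.Agent.Blocks.PairAlg.Pairs
import Cfsg.Agent.Blocks.PairsOrder
import Cfsg.Agent.Blocks.Residue
import Cfsg.Agent.Blocks.Covering
import Cfsg.Agent.Blocks.InducedDefect
import Cfsg.Agent.Blocks.DefectConj

/-!
# Reduction of the group algebras of subgroups, and their block idempotents

For an injective homomorphism `ι : A →* G` the reduced elements of `ℂ A` are read in `k G`, `k` the residue field at `M`.
-/

set_option autoImplicit false
set_option linter.unusedSectionVars false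
set_option linter.style.haveILetI false

namespace CfsgLib.PairAlg

open Cfsg CfsgLib.Blocks CfsgLib.CharBasics

attribute [local instance] residueField residue_charP

variable {p : ℕ} {M : Ideal AlgInt}

/-- Reduction of a complex number. -/
noncomputable def rd (hM : IsPModular p M) (c : ℂ) : Residue hM := by
  classical exact if h : MemLocalRing M c then Ideal.Quotient.mk (localIdeal hM) ⟨c, h⟩ else 0

section Rd

variable (hM : IsPModular p M)

theorem rd_mk {c : ℂ} (h : MemLocalRing M c) : rd hM c = Ideal.Quotient.mk (localIdeal hM) ⟨c, h⟩ := by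
  rw [rd, dif_pos h]

theorem rd_eq_zero {c : ℂ} (h : MemLocalRing M c) : rd hM c = 0 ↔ MemLocalIdeal M c := by
  rw [rd_mk hM h, Ideal.Quotient.eq_zero_iff_mem]; rfl

theorem rd_zero : rd hM 0 = 0 := by
  rw [rd_mk hM (memLocalRing_zero hM)]; exact map_zero _

theorem rd_one : rd hM 1 = 1 := by
  rw [rd_mk hM (memLocalRing_one hM)]; exact map_one _

theorem rd_add {a b : ℂ} (ha : MemLocalRing M a) (hb : MemLocalRing M b) : rd hM (a + b) = rd hM a + rd hM b := by
  rw [rd_mk hM (memLocalRing_add hM ha hb), rd_mk hM ha, rd_mk hM hb, ← map_add]; rfl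

theorem rd_sub {a b : ℂ} (ha : MemLocalRing M a) (hb : MemLocalRing M b) : rd hM (a - b) = rd hM a - rd hM b := by
  rw [eq_sub_iff_add_eq, ← rd_add hM (by rw [sub_eq_add_neg]; exact memLocalRing_add hM ha (memLocalRing_neg hb)) hb,
    sub_add_cancel]

theorem rd_mul {a b : ℂ} (ha : MemLocalRing M a) (hb : MemLocalRing M b) : rd hM (a * b) = rd hM a * rd hM b := by
  rw [rd_mk hM (memLocalRing_mul hM ha hb), rd_mk hM ha, rd_mk hM hb, ← map_mul]; rfl

theorem rd_sum {ι : Type*} (s : Finset ι) (a : ι → ℂ) (h : ∀ i ∈ s, MemLocalRing M (a i)) :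
    rd hM (∑ i ∈ s, a i) = ∑ i ∈ s, rd hM (a i) := by
  classical
  induction s using Finset.induction_on with
  | empty => simp [rd_zero]
  | insert i s hi ih =>
    rw [Finset.sum_insert hi, Finset.sum_insert hi,
      rd_add hM (h i (Finset.mem_insert_self _ _)) (memLocalRing_sum hM _ fun j hj => h j (Finset.mem_insert_of_mem hj)),
      ih fun j hj => h j (Finset.mem_insert_of_mem hj)]

theorem rd_congr {a b : ℂ} (ha : MemLocalRing M a) (hb : MemLocalRing M b) :
    rd hM a = rd hM b ↔ MemLocalIdeal M (a - b) := by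
  rw [← rd_eq_zero hM (by rw [sub_eq_add_neg]; exact memLocalRing_add hM ha (memLocalRing_neg hb)),
    rd_sub hM ha hb, sub_eq_zero]

theorem exists_rd (x : Residue hM) : ∃ c : ℂ, MemLocalRing M c ∧ rd hM c = x := by
  obtain ⟨⟨c, hc⟩, rfl⟩ := Ideal.Quotient.mk_surjective x
  exact ⟨c, hc, rd_mk hM hc⟩

end Rd

variable {G : Type*} [Group G] [Fintype G] {A : Type*} [Group A] [Fintype A]

/-- Reduction along a homomorphism. -/
noncomputable def up (hM : IsPModular p M) (ι : A →* G) (z : MonoidAlgebra ℂ A) : MonoidAlgebra (Residue hM) G :=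
  ∑ a, MonoidAlgebra.single (ι a) (rd hM (z.coeff a))

section Up

variable (hM : IsPModular p M) (ι : A →* G)
include hM

theorem up_mul {z w : MonoidAlgebra ℂ A} (hz : IsIntegralElt M z) (hw : IsIntegralElt M w) :
    up hM ι (z * w) = up hM ι z * up hM ι w := by
  simp only [up, Finset.sum_mul, Finset.mul_sum, MonoidAlgebra.single_mul_single, ← map_mul ι]
  rw [Finset.sum_comm]
  symm
  calc ∑ a, ∑ b, MonoidAlgebra.single (ι (a * b)) (rd hM (z.coeff a) * rd hM (w.coeff b))
      = ∑ a, ∑ c, MonoidAlgebra.single (ι c) (rd hM (z.coeff a) * rd hM (w.coeff (a⁻¹ * c))) :=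
        Finset.sum_congr rfl fun a _ => Fintype.sum_equiv (Equiv.mulLeft a) _ _ fun b => by simp
    _ = ∑ c, ∑ a, MonoidAlgebra.single (ι c) (rd hM (z.coeff a) * rd hM (w.coeff (a⁻¹ * c))) := Finset.sum_comm
    _ = ∑ c, MonoidAlgebra.single (ι c) (rd hM ((z * w).coeff c)) := Finset.sum_congr rfl fun c _ => by
      rw [Blocks.coeff_mul_eq, rd_sum hM _ _ fun a _ => memLocalRing_mul hM (hz a) (hw _), MonoidAlgebra.single,
        Finsupp.single_finsetSum, MonoidAlgebra.ofCoeff_sum]
      exact Finset.sum_congr rfl fun a _ => by rw [rd_mul hM (hz a) (hw _)]; rfl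

theorem up_one : up hM ι (1 : MonoidAlgebra ℂ A) = 1 := by
  classical
  rw [up, Finset.sum_eq_single (1 : A)]
  · simp [MonoidAlgebra.one_def, rd_one]
  · intro a _ ha
    simp [MonoidAlgebra.one_def, Finsupp.single_apply, Ne.symm ha, rd_zero]
  · simp

theorem up_zero : up hM ι (0 : MonoidAlgebra ℂ A) = 0 := by simp [up, rd_zero]

theorem up_sub {z w : MonoidAlgebra ℂ A} (hz : IsIntegralElt M z) (hw : IsIntegralElt M w) :
    up hM ι (z - w) = up hM ι z - up hM ι w := by
  simp only [up, ← Finset.sum_sub_distrib, MonoidAlgebra.coeff_sub, Finsupp.sub_apply]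
  exact Finset.sum_congr rfl fun a _ => by rw [rd_sub hM (hz a) (hw a), MonoidAlgebra.single_sub]

theorem up_smul {z : MonoidAlgebra ℂ A} (hz : IsIntegralElt M z) {c : ℂ} (hc : MemLocalRing M c) :
    up hM ι (c • z) = rd hM c • up hM ι z := by
  simp only [up, Finset.smul_sum, MonoidAlgebra.coeff_smul, Finsupp.smul_apply, smul_eq_mul]
  exact Finset.sum_congr rfl fun a _ => by rw [rd_mul hM hc (hz a), MonoidAlgebra.smul_single', mul_comm]

theorem isIntegralElt_sum {κ : Type*} (s : Finset κ) (z : κ → MonoidAlgebra ℂ A)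
    (h : ∀ i ∈ s, IsIntegralElt M (z i)) : IsIntegralElt M (∑ i ∈ s, z i) := fun g => by
  rw [MonoidAlgebra.coeff_sum, Finsupp.finsetSum_apply]
  exact memLocalRing_sum hM _ fun i hi => h i hi g

theorem up_sum {κ : Type*} (s : Finset κ) (z : κ → MonoidAlgebra ℂ A) (h : ∀ i ∈ s, IsIntegralElt M (z i)) :
    up hM ι (∑ i ∈ s, z i) = ∑ i ∈ s, up hM ι (z i) := by
  simp only [up]
  rw [Finset.sum_comm]
  refine Finset.sum_congr rfl fun a _ => ?_
  rw [MonoidAlgebra.coeff_sum, Finsupp.finsetSum_apply, rd_sum hM _ _ fun i hi => h i hi a, MonoidAlgebra.single,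
    Finsupp.single_finsetSum, MonoidAlgebra.ofCoeff_sum]
  rfl

theorem isIntegralElt_pow {z : MonoidAlgebra ℂ A} (hz : IsIntegralElt M z) (n : ℕ) : IsIntegralElt M (z ^ n) := by
  induction n with
  | zero => rw [pow_zero]; exact isIntegralElt_one hM
  | succ n ih => rw [pow_succ]; exact ih.mul hM hz

theorem up_pow {z : MonoidAlgebra ℂ A} (hz : IsIntegralElt M z) (n : ℕ) : up hM ι (z ^ n) = up hM ι z ^ n := by
  induction n with
  | zero => rw [pow_zero, pow_zero, up_one]
  | succ n ih => rw [pow_succ, pow_succ, up_mul hM ι (isIntegralElt_pow hM hz n) hz, ih]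

theorem coeff_up_of_notMem (z : MonoidAlgebra ℂ A) {g : G} (hg : g ∉ ι.range) : (up hM ι z).coeff g = 0 := by
  classical
  rw [up, MonoidAlgebra.coeff_sum, Finsupp.finsetSum_apply]
  refine Finset.sum_eq_zero fun a _ => ?_
  simp only [MonoidAlgebra.coeff_single, Finsupp.single_apply]
  rw [if_neg]
  rintro rfl
  exact hg ⟨a, rfl⟩

theorem supp_up (z : MonoidAlgebra ℂ A) : Supp ι.range (up hM ι z) := fun _ hg =>
  by_contra fun h => hg (coeff_up_of_notMem hM ι z h)

theorem coeff_up (hι : Function.Injective ι) (z : MonoidAlgebra ℂ A) (a : A) :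
    (up hM ι z).coeff (ι a) = rd hM (z.coeff a) := by
  classical
  rw [up, MonoidAlgebra.coeff_sum, Finsupp.finsetSum_apply, Finset.sum_eq_single a]
  · simp
  · intro b _ hb
    simp [hι.ne hb]
  · simp

theorem up_eq_zero_of_isSmall {z : MonoidAlgebra ℂ A} (h : ZStar.IsSmall M z) (hz : IsIntegralElt M z) :
    up hM ι z = 0 := by
  refine Finset.sum_eq_zero fun a _ => ?_
  rw [(rd_eq_zero hM (hz a)).2 (h a), MonoidAlgebra.single_zero]

theorem cenIn_up (hι : Function.Injective ι) {z : MonoidAlgebra ℂ A} (hz : IsClassElt z) :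
    CenIn ι.range (up hM ι z) := by
  refine ⟨supp_up hM ι z, fix_of_coeff ?_⟩
  rintro _ ⟨b, rfl⟩ x
  by_cases hx : x ∈ ι.range
  · obtain ⟨a, rfl⟩ := hx
    rw [← map_inv, ← map_mul, ← map_mul, coeff_up hM ι hι, coeff_up hM ι hι, Blocks.coeff_conj hz]
  · rw [coeff_up_of_notMem hM ι _ hx, coeff_up_of_notMem hM ι]
    rintro h
    have hb' : ι b ∈ ι.range := ⟨b, rfl⟩
    have := Subgroup.mul_mem _ (Subgroup.mul_mem _ (Subgroup.inv_mem _ hb') h) hb'
    exact hx (by simpa [mul_assoc] using this)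

theorem exists_lift (hι : Function.Injective ι) {a : MonoidAlgebra (Residue hM) G} (ha : CenIn ι.range a) :
    ∃ z : MonoidAlgebra ℂ A, IsClassElt z ∧ IsIntegralElt M z ∧ up hM ι z = a := by
  choose s hs1 hs2 using exists_rd hM
  refine ⟨ofFun fun x => s (a.coeff (ι x)), fun g h => ?_, fun g => by rw [coeff_ofFun]; exact hs1 _, ?_⟩
  · simp only [coeff_ofFun, map_mul, map_inv]
    rw [ha.2.coeff ⟨h, rfl⟩]
  · ext g
    by_cases hg : g ∈ ι.range
    · obtain ⟨x, rfl⟩ := hg
      rw [coeff_up hM ι hι, coeff_ofFun, hs2]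
    · rw [coeff_up_of_notMem hM ι _ hg]
      exact (by_contra fun h => hg (ha.1 g (Ne.symm h)))

theorem cj_single (x g : G) (c : Residue hM) :
    cj x (MonoidAlgebra.single g c) = MonoidAlgebra.single (x * g * x⁻¹) c := by
  classical
  ext y
  simp only [coeff_cj, MonoidAlgebra.coeff_single, Finsupp.single_apply]
  refine if_congr ⟨fun h => by rw [h]; group, fun h => by rw [← h]; group⟩ rfl rfl

theorem cj_up {A' : Type*} [Group A'] [Fintype A'] (ι' : A' →* G) (φ : A ≃* A') (x : G)
    (hφ : ∀ a, ι' (φ a) = x * ι a * x⁻¹) {z : MonoidAlgebra ℂ A} {z' : MonoidAlgebra ℂ A'}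
    (hz : ∀ a, z'.coeff (φ a) = z.coeff a) : cj x (up hM ι z) = up hM ι' z' := by
  simp only [up, map_sum, cj_single]
  exact Fintype.sum_equiv φ.toEquiv _ _ fun a => by simp [hφ, hz]

end Up

/-- The reduced idempotent of a set of characters. -/
noncomputable def bl (hM : IsPModular p M) (ι : A →* G) (b : Set (IrrCharacter A)) : MonoidAlgebra (Residue hM) G :=
  up hM ι (blockElt b)

section Bl

variable (hM : IsPModular p M) (ι : A →* G) (hι : Function.Injective ι)

theorem bl_mul_sub_nilpotent {b : Set (IrrCharacter A)} (hb : IsPBlock M b) {z : MonoidAlgebra ℂ A}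
    (hz : IsClassElt z) (hzi : IsIntegralElt M z) {ξ : IrrCharacter A} (hξ : ξ ∈ b) :
    IsNilpotent (bl hM ι b * up hM ι z - rd hM (omega (ξ : A → ℂ) z) • bl hM ι b) := by
  classical
  have hc := memLocalRing_omega hM ξ hz hzi
  have hbi := isIntegralElt_blockElt hM hb
  have hbc := isClassElt_blockElt b
  set w := blockElt b * z - omega (ξ : A → ℂ) z • blockElt b with hw
  have hwi : IsIntegralElt M w := (hbi.mul hM hzi).sub hM (hbi.smul hM hc)
  obtain ⟨n, -, hn⟩ := ZStar.exists_pow_isSmall hM ((hbc.mul hz).sub (hbc.smul (omega (ξ : A → ℂ) z))) fun χ => by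
    rw [omega_sub, omega_mul χ.2 hbc, omega_smul, omega_blockElt]
    split_ifs with hχ
    · rw [one_mul, mul_one]
      exact omega_sub_mem_of_sameBlock hM ((IsPBlock.mem_iff hM hb hχ).1 hξ) hz hzi
    · rw [zero_mul, mul_zero, sub_zero]; exact memLocalIdeal_zero hM
  refine ⟨n, ?_⟩
  rw [bl, ← up_mul hM ι hbi hzi, ← up_smul hM ι hbi hc, ← up_sub hM ι (hbi.mul hM hzi) (hbi.smul hM hc),
    ← up_pow hM ι hwi]
  exact up_eq_zero_of_isSmall hM ι hn (isIntegralElt_pow hM hwi n)

theorem bl_idem {b : Set (IrrCharacter A)} (hb : IsPBlock M b) : bl hM ι b * bl hM ι b = bl hM ι b := by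
  rw [bl, ← up_mul hM ι (isIntegralElt_blockElt hM hb) (isIntegralElt_blockElt hM hb),
    (isIdempotentElem_blockElt b).eq]

include hι

theorem bl_ne {b : Set (IrrCharacter A)} (hb : IsPBlock M b) : bl hM ι b ≠ 0 := by
  classical
  intro h0
  obtain ⟨ξ, hξ⟩ := IsPBlock.nonempty hM hb
  refine not_memLocalIdeal_one hM ?_
  have h1 : omega (ξ : A → ℂ) (blockElt b) = 1 := by rw [omega_blockElt, if_pos hξ]
  rw [← h1]
  refine ZStar.memLocalIdeal_omega hM ξ (isClassElt_blockElt b) fun a => ?_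
  rw [← rd_eq_zero hM (isIntegralElt_blockElt hM hb a), ← coeff_up hM ι hι, ← bl, h0]
  simp

theorem isBlk_bl {b : Set (IrrCharacter A)} (hb : IsPBlock M b) : IsBlk ι.range (bl hM ι b) where
  cen := cenIn_up hM ι hι (isClassElt_blockElt b)
  idem := bl_idem hM ι hb
  ne := bl_ne hM ι hι hb
  scal := fun a ha => by
    obtain ⟨z, hz, hzi, rfl⟩ := exists_lift hM ι hι ha
    obtain ⟨ξ, hξ⟩ := IsPBlock.nonempty hM hb
    exact ⟨_, bl_mul_sub_nilpotent hM ι hb hz hzi hξ⟩

omit hι in
theorem bl_mul_eq_zero {b b' : Set (IrrCharacter A)} (hb : IsPBlock M b) (hb' : IsPBlock M b') (hne : b ≠ b') :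
    bl hM ι b * bl hM ι b' = 0 := by
  classical
  rw [bl, bl, ← up_mul hM ι (isIntegralElt_blockElt hM hb) (isIntegralElt_blockElt hM hb'),
    show blockElt b * blockElt b' = (0 : MonoidAlgebra ℂ A) from ?_, up_zero]
  refine eq_of_omega_eq ((isClassElt_blockElt b).mul (isClassElt_blockElt b')) (fun _ _ => rfl) fun χ => ?_
  rw [omega_mul χ.2 (isClassElt_blockElt b), omega_blockElt, omega_blockElt]
  have h0 : omega (χ : A → ℂ) 0 = 0 := by simp [omega]
  rw [h0]
  split_ifs with h1 h2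
  · exact absurd (IsPBlock.eq_of_mem hM hb hb' h1 h2) hne
  all_goals simp

theorem bl_inj {b b' : Set (IrrCharacter A)} (hb : IsPBlock M b) (hb' : IsPBlock M b')
    (h : bl hM ι b = bl hM ι b') : b = b' := by
  by_contra hne
  have h0 := bl_mul_eq_zero hM ι hb hb' hne
  rw [← h, bl_idem hM ι hb] at h0
  exact bl_ne hM ι hι hb h0

theorem exists_blocks : ∃ s : Finset (MonoidAlgebra (Residue hM) G),
    (∀ e ∈ s, ∃ b, IsPBlock M b ∧ bl hM ι b = e) ∧ ∑ e ∈ s, e = 1 := by
  classical
  haveI : Fintype (IrrCharacter A) := @Fintype.ofFinite _ finite_irrCharacter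
  refine ⟨(blockFinset M A).image (bl hM ι), fun e he => ?_, ?_⟩
  · obtain ⟨b, hb, rfl⟩ := Finset.mem_image.1 he
    exact ⟨b, mem_blockFinset.1 hb, rfl⟩
  · rw [Finset.sum_image fun b hb b' hb' => bl_inj hM ι hι (mem_blockFinset.1 hb) (mem_blockFinset.1 hb')]
    simp only [bl]
    rw [← up_sum hM ι _ _ fun b hb => isIntegralElt_blockElt hM (mem_blockFinset.1 hb),
      sum_blockElt_eq_one hM, up_one]

/-- Every block idempotent of the image comes from a block. -/
theorem exists_bl {K : Subgroup G} (hK : ι.range = K) {a : MonoidAlgebra (Residue hM) G} (ha : IsBlk K a) :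
    ∃ b, IsPBlock M b ∧ bl hM ι b = a := by
  subst hK
  obtain ⟨s, hs, h1⟩ := exists_blocks hM ι hι
  obtain ⟨e, he, hne⟩ : ∃ e ∈ s, a * e ≠ 0 := by
    by_contra hcon
    push Not at hcon
    exact ha.ne (by rw [← mul_one a, ← h1, Finset.mul_sum, Finset.sum_eq_zero hcon])
  obtain ⟨b, hb, rfl⟩ := hs e he
  exact ⟨b, hb, ((ha.eq_or_mul_eq_zero (isBlk_bl hM ι hι hb)).resolve_left hne).symm⟩

/-- A block occurs in a central idempotent exactly when its central character is `1` there. -/
theorem bl_mul_eq_iff {b : Set (IrrCharacter A)} (hb : IsPBlock M b) {z : MonoidAlgebra ℂ A} (hz : IsClassElt z)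
    (hzi : IsIntegralElt M z) (hid : up hM ι z * up hM ι z = up hM ι z) {ξ : IrrCharacter A} (hξ : ξ ∈ b) :
    bl hM ι b * up hM ι z = bl hM ι b ↔ rd hM (omega (ξ : A → ℂ) z) = 1 := by
  have hn := bl_mul_sub_nilpotent hM ι hb hz hzi hξ
  have hsc : ∀ v : Residue hM, IsNilpotent (v • bl hM ι b) → v = 0 := by
    rintro v ⟨n, hn⟩
    by_contra hv
    have h1 : (v • bl hM ι b) ^ (n + 1) = v ^ (n + 1) • bl hM ι b := by
      rw [smul_pow, IsIdempotentElem.pow_succ_eq n (bl_idem hM ι hb)]
    rw [pow_succ, hn, zero_mul] at h1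
    rcases smul_eq_zero.1 h1.symm with h2 | h2
    · exact hv (pow_eq_zero_iff'.1 h2).1
    · exact bl_ne hM ι hι hb h2
  constructor
  · intro h
    rw [h] at hn
    have e : bl hM ι b - rd hM (omega (ξ : A → ℂ) z) • bl hM ι b = (1 - rd hM (omega (ξ : A → ℂ) z)) • bl hM ι b := by
      rw [sub_smul, one_smul]
    rw [e] at hn
    exact (sub_eq_zero.1 (hsc _ hn)).symm
  · intro h
    rcases (isBlk_bl hM ι hι hb).mul_idem (cenIn_up hM ι hι hz) hid with h0 | h0
    · exfalso
      rw [h0, h, one_smul, zero_sub] at hn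
      exact one_ne_zero (hsc 1 (by rw [one_smul]; exact isNilpotent_neg_iff.1 hn))
    · exact h0

end Bl

theorem complete (hM : IsPModular p M) : Complete (Residue hM) G := by
  classical
  intro K
  obtain ⟨s, hs, h1⟩ := exists_blocks hM K.subtype K.subtype_injective
  refine ⟨s, fun e he => ?_, h1⟩
  obtain ⟨b, hb, rfl⟩ := hs e he
  have := isBlk_bl hM K.subtype K.subtype_injective hb
  rwa [Subgroup.range_subtype] at this

end CfsgLib.PairAlg
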