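import Cfsg.Agent.Blocks.PairAlg.GLevel
import Cfsg.Agent.Blocks.PairAlg.Nilpotent

/-!
# Pairs over a normal subgroup of `p`-power index
-/

set_option autoImplicit false
set_option linter.unusedSectionVars false
set_option linter.style.haveILetI false

namespace CfsgLib.PairAlg

open scoped Pointwise

theorem mem_of_primePow_parts {G : Type*} [Group G] [Fintype G] {C : Subgroup G} {x : G}
    (h : ∀ q : ℕ, q.Prime → q ∣ orderOf x → ∀ y ∈ Subgroup.zpowers x, (∃ i, orderOf y = q ^ i) → y ∈ C) : x ∈ C := by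
  set H := C.subgroupOf (Subgroup.zpowers x) with hH
  have h1 : H.index = 1 := by
    by_contra hne
    obtain ⟨q, hq, hdvd⟩ := Nat.exists_prime_and_dvd hne
    haveI := Fact.mk hq
    have hqx : q ∣ orderOf x := by
      rw [← Nat.card_zpowers]
      exact hdvd.trans (Subgroup.index_dvd_card H)
    obtain ⟨Q⟩ : Nonempty (Sylow q (Subgroup.zpowers x)) := inferInstance
    have hle : (Q : Subgroup (Subgroup.zpowers x)) ≤ H := fun y hy => by
      obtain ⟨i, hi⟩ := IsPGroup.iff_orderOf.1 Q.isPGroup' ⟨y, hy⟩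
      rw [← Subgroup.orderOf_coe, ← Subgroup.orderOf_coe] at hi
      exact h q hq hqx (y : G) y.2 ⟨i, hi⟩
    exact Q.not_dvd_index (hdvd.trans (Subgroup.index_dvd_of_le hle))
  have := Subgroup.index_eq_one.1 h1
  exact this.ge (Subgroup.mem_top (⟨x, Subgroup.mem_zpowers x⟩ : Subgroup.zpowers x))

section Algebra

variable {k : Type*} [Field k] {G : Type*} [Group G] [Fintype G] {p : ℕ} [CharP k p]

/-- A block of `L` supported in a normal subgroup is a sum over one orbit; an element prime to `p` fixing it fixes a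
member when the orbit has `p`-power length. -/
theorem exists_fixed_below (hc : Complete k G) {L K : Subgroup G} (hKL : K ≤ L) (hn : ∀ u ∈ L, cm u K = K)
    {j : ℕ} (hidx : K.relIndex L ∣ p ^ j) {b : MonoidAlgebra k G} (hb : IsBlk L b) (hbK : Supp K b)
    {q : ℕ} [Fact q.Prime] (hqp : q.Coprime p) {y : G} (hy : ∃ i, orderOf y = q ^ i)
    (hyK : cm y K = K) (hyb : cj y b = b) :
    ∃ g, IsBlk K g ∧ b * g = g ∧ cj y g = g := by
  classical
  have hbc : CenIn K b := ⟨hbK, hb.cen.2.mono hKL⟩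
  obtain ⟨g₀, hg₀, hgb₀⟩ := exists_blk_le hc (K := K) hb.ne hbc hb.idem
  obtain ⟨s, hs, h1⟩ := hc K
  have hbg₀ : b * g₀ = g₀ := by rw [hbc.comm hg₀.cen.1, hgb₀]
  -- the orbit
  letI : MulAction L (MonoidAlgebra k G) :=
    { smul := fun t a => cj (t : G) a
      one_smul := fun a => cj_one_apply a
      mul_smul := fun s t a => (cj_cj (s : G) (t : G) a).symm }
  have hfin : (MulAction.orbit L g₀).Finite := Set.finite_range _
  set O := hfin.toFinset with hO
  have hmem : ∀ a ∈ O, ∃ t : L, cj (t : G) g₀ = a := fun a ha => MulAction.mem_orbit_iff.1 (hfin.mem_toFinset.1 ha)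
  have hblk : ∀ a ∈ O, IsBlk K a ∧ b * a = a := by
    intro a ha
    obtain ⟨t, rfl⟩ := hmem a ha
    refine ⟨?_, ?_⟩
    · have := hg₀.cj (t : G)
      rwa [show K.map (MulAut.conj (t : G)).toMonoidHom = K from hn _ t.2] at this
    · conv_lhs => rw [← hb.cen.2 _ t.2]
      rw [← map_mul, hbg₀]
  set w := ∑ a ∈ O, a with hw
  have hclosed : ∀ u ∈ L, ∀ a ∈ O, cj u a ∈ O := by
    intro u hu a ha
    obtain ⟨t, rfl⟩ := hmem a ha
    exact hfin.mem_toFinset.2 ⟨⟨u, hu⟩ * t, (cj_cj _ _ _).symm⟩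
  have hwc : CenIn L w := by
    refine ⟨supp_sum _ _ fun a ha => (hblk a ha).1.cen.1.mono hKL, fun u hu => ?_⟩
    rw [hw, map_sum]
    refine Finset.sum_bij (fun a _ => cj u a) (fun a ha => hclosed u hu a ha)
      (fun a _ a' _ h => cj_injective u h)
      (fun a ha => ⟨cj u⁻¹ a, hclosed _ (L.inv_mem hu) a ha, cj_cj_inv u a⟩) (fun a _ => rfl)
  have hwa : ∀ a ∈ O, w * a = a := by
    intro a ha
    rw [hw, Finset.sum_mul, Finset.sum_eq_single_of_mem a ha fun a' ha' hne =>
      ((hblk a' ha').1.eq_or_mul_eq_zero (hblk a ha).1).resolve_right hne, (hblk a ha).1.idem]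
  have hww : w * w = w := by
    conv_lhs => arg 2; rw [hw]
    rw [Finset.mul_sum, hw]
    exact Finset.sum_congr rfl fun a ha => hwa a ha
  have hg₀O : g₀ ∈ O := hfin.mem_toFinset.2 (MulAction.mem_orbit_self g₀)
  have hbw : b = w := by
    rcases hb.mul_idem hwc hww with h | h
    · exfalso
      apply hg₀.ne
      rw [← hbg₀, ← hwa g₀ hg₀O, ← mul_assoc, h, zero_mul]
    · rw [← h, hw, Finset.mul_sum]
      exact Finset.sum_congr rfl fun a ha => (hblk a ha).2
  -- the members below b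
  have hchar : ∀ a, IsBlk K a → b * a = a → a ∈ O := by
    intro a ha hba
    by_contra hn'
    apply ha.ne
    rw [← hba, hbw, hw, Finset.sum_mul]
    exact Finset.sum_eq_zero fun a' ha' => ((hblk a' ha').1.eq_or_mul_eq_zero ha).resolve_right
      fun h => hn' (h ▸ ha')
  have hyO : ∀ z ∈ Subgroup.zpowers y, ∀ a ∈ O, cj z a ∈ O := by
    intro z hz a ha
    obtain ⟨ha1, ha2⟩ := hblk a ha
    have hzK : z ∈ Subgroup.normalizer (K : Set G) :=
      (Subgroup.zpowers_le.2 (mem_normalizer_of_cm hyK) : Subgroup.zpowers y ≤ _) hz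
    have hzb : z ∈ stabOf b := (Subgroup.zpowers_le.2 (mem_stabOf.2 hyb) : Subgroup.zpowers y ≤ _) hz
    refine hchar _ ?_ ?_
    · have := ha1.cj z
      rwa [show K.map (MulAut.conj z).toMonoidHom = K from cm_of_mem_normalizer hzK] at this
    · conv_lhs => rw [← mem_stabOf.1 hzb]
      rw [← map_mul, ha2]
  have hcard : O.card ∣ p ^ j := by
    rw [hO, ← Set.ncard_eq_toFinset_card _ hfin, ← MulAction.index_stabilizer]
    refine (Subgroup.index_dvd_of_le (H := K.subgroupOf L) fun t ht => ?_).trans hidx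
    exact MulAction.mem_stabilizer_iff.2 (hg₀.cen.2 (t : G) ht)
  letI : MulAction (Subgroup.zpowers y) O :=
    { smul := fun z a => ⟨cj (z : G) a.1, hyO z z.2 a.1 a.2⟩
      one_smul := fun a => Subtype.ext (cj_one_apply a.1)
      mul_smul := fun s t a => Subtype.ext (cj_cj (s : G) (t : G) a.1).symm }
  obtain ⟨i, hi⟩ := hy
  have hQ : IsPGroup q (Subgroup.zpowers y) := IsPGroup.of_card ((Nat.card_zpowers y).trans hi)
  have hnd : ¬ q ∣ Nat.card O := by
    rw [Nat.card_eq_fintype_card, Fintype.card_coe]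
    intro h
    have h2 : q ∣ p ^ j := h.trans hcard
    have := (Fact.out : q.Prime).coprime_iff_not_dvd.1 (Nat.Coprime.pow_right j hqp)
    exact this h2
  obtain ⟨a, ha⟩ := hQ.nonempty_fixed_point_of_prime_not_dvd_card O hnd
  exact ⟨a.1, (hblk a.1 a.2).1, (hblk a.1 a.2).2,
    congrArg Subtype.val (ha ⟨y, Subgroup.mem_zpowers y⟩)⟩

end Algebra

open Cfsg CfsgLib.Blocks

attribute [local instance] residueField residue_charP

noncomputable local instance instFintypeSubgroupPPower {G : Type*} [Group G] [Fintype G] (K : Subgroup G) :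
    Fintype K := Fintype.ofFinite K

variable {p : ℕ} [Fact p.Prime] {M : Ideal AlgInt} {G : Type*} [Group G] [Fintype G]

theorem mem_of_regular {N : Subgroup G} [N.Normal] (hN : ∃ k : ℕ, N.index = p ^ k) {g : G}
    (hg : ¬ p ∣ orderOf g) : g ∈ N := by
  obtain ⟨k, hk⟩ := hN
  have h1 : orderOf (g : G ⧸ N) ∣ p ^ k := hk ▸ orderOf_dvd_natCard _
  have h2 : orderOf (g : G ⧸ N) ∣ orderOf g := orderOf_map_dvd (QuotientGroup.mk' N) g
  have h3 := Nat.eq_one_of_dvd_coprimes
    (Nat.Coprime.pow_left _ ((Fact.out : p.Prime).coprime_iff_not_dvd.2 hg)) h1 h2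
  exact (QuotientGroup.eq_one_iff g).1 (orderOf_eq_one_iff.1 h3)

/-- Block idempotents of centralizers live on a normal subgroup of `p`-power index. -/
theorem supp_bc (hM : IsPModular p M) {N : Subgroup G} [N.Normal] (hN : ∃ k : ℕ, N.index = p ^ k) {R : Subgroup G}
    {a : MonoidAlgebra (Residue hM) G} (h : IsPair p ⊤ R a) : Supp (N ⊓ Subgroup.centralizer (R : Set G)) a := by
  obtain ⟨f, hf, rfl⟩ := exists_bc hM h
  intro g hg
  have hgC : g ∈ Subgroup.centralizer (R : Set G) := by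
    have := (h.blk.cen.1 g hg)
    rwa [CH_top] at this
  refine ⟨mem_of_regular hN fun hd => hg ?_, hgC⟩
  have e := coeff_up hM (Subgroup.centralizer (R : Set G)).subtype (Subgroup.subtype_injective _) (blockElt f) ⟨g, hgC⟩
  rw [coeff_blockElt, blockCoeff_eq_zero hM hf.2 (y := ⟨g, hgC⟩) (by rwa [← Subgroup.orderOf_coe]), rd_zero] at e
  exact e

end CfsgLib.PairAlg
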