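import Cfsg.Agent.Blocks.PairAlg.Basic

/-!
# Pairs of a `p`-subgroup and a block idempotent of its centralizer inside a fixed subgroup `H`
-/

set_option autoImplicit false
set_option linter.unusedSectionVars false
set_option linter.style.haveILetI false

namespace CfsgLib.PairAlg

variable {k : Type*} [Field k] {G : Type*} [Group G] [Fintype G] {p : ℕ} [Fact p.Prime] [CharP k p]

/-- The centralizer inside `H`. -/
def CH (H P : Subgroup G) : Subgroup G := H ⊓ Subgroup.centralizer (P : Set G)

theorem CH_le_of_le {H P Q : Subgroup G} (h : Q ≤ P) : CH H P ≤ CH H Q :=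
  inf_le_inf_left H (Subgroup.centralizer_le h)

theorem normalizer_CH {H P : Subgroup G} {u : G} (huH : u ∈ Subgroup.normalizer (H : Set G))
    (huP : u ∈ Subgroup.normalizer (P : Set G)) : (CH H P).map (MulAut.conj u).toMonoidHom = CH H P := by
  have key : ∀ (v : G), v ∈ Subgroup.normalizer (H : Set G) → v ∈ Subgroup.normalizer (P : Set G) →
      ∀ x ∈ CH H P, v * x * v⁻¹ ∈ CH H P := by
    intro v hvH hvP x hx
    refine ⟨(Subgroup.mem_normalizer_iff.1 hvH x).1 hx.1, Subgroup.mem_centralizer_iff.2 fun q hq => ?_⟩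
    have hq' : v⁻¹ * q * v ∈ P := by
      have := (Subgroup.mem_normalizer_iff.1 (Subgroup.inv_mem _ hvP) q).1 hq
      simpa using this
    have := Subgroup.mem_centralizer_iff.1 hx.2 _ hq'
    calc q * (v * x * v⁻¹) = v * ((v⁻¹ * q * v) * x) * v⁻¹ := by group
      _ = v * (x * (v⁻¹ * q * v)) * v⁻¹ := by rw [this]
      _ = _ := by group
  refine le_antisymm ?_ fun x hx => ⟨u⁻¹ * x * u, ?_, by simp [mul_assoc]⟩
  · rintro _ ⟨x, hx, rfl⟩
    exact key u huH huP x hx
  · simpa using key u⁻¹ (Subgroup.inv_mem _ huH) (Subgroup.inv_mem _ huP) x hx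

/-- The truncation of a central element of a bigger subgroup is central in the centralizer. -/
theorem cenIn_br {H P Q : Subgroup G} (hQP : Q ≤ P) {a : MonoidAlgebra k G} (ha : CenIn (CH H Q) a) :
    CenIn (CH H P) (Br P a) := by
  refine ⟨fun x hx => ⟨?_, supp_cut _ a x hx⟩, fix_of_coeff fun u hu x => ?_⟩
  · have hc : x ∈ Subgroup.centralizer (P : Set G) := supp_cut _ a x hx
    rw [Br, coeff_cut_of_mem _ hc] at hx
    exact (ha.1 x hx).1
  · have hiff : u * x * u⁻¹ ∈ Subgroup.centralizer (P : Set G) ↔ x ∈ Subgroup.centralizer (P : Set G) := by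
      constructor
      · intro h
        have := Subgroup.mul_mem _ (Subgroup.mul_mem _ (Subgroup.inv_mem _ hu.2) h) hu.2
        simpa [mul_assoc] using this
      · exact fun h => Subgroup.mul_mem _ (Subgroup.mul_mem _ hu.2 h) (Subgroup.inv_mem _ hu.2)
    by_cases hx : x ∈ Subgroup.centralizer (P : Set G)
    · rw [Br, coeff_cut_of_mem _ hx, coeff_cut_of_mem _ (hiff.2 hx), ha.2.coeff (CH_le_of_le hQP hu)]
    · rw [Br, coeff_cut_of_notMem _ hx, coeff_cut_of_notMem _ (fun h => hx (hiff.1 h))]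

theorem cenIn_br_top {H P : Subgroup G} {a : MonoidAlgebra k G} (ha : CenIn H a) : CenIn (CH H P) (Br P a) := by
  have h : CH H (⊥ : Subgroup G) = H := by
    refine le_antisymm inf_le_left fun x hx => ⟨hx, Subgroup.mem_centralizer_iff.2 fun q hq => ?_⟩
    rw [SetLike.mem_coe, Subgroup.mem_bot] at hq
    rw [hq, one_mul, mul_one]
  exact cenIn_br bot_le (h.symm ▸ ha)

/-- A pair inside `H`. -/
structure IsPair (p : ℕ) (H P : Subgroup G) (e : MonoidAlgebra k G) : Prop where
  isP : IsPGroup p P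
  le : P ≤ H
  blk : IsBlk (CH H P) e

theorem IsPair.fix {H P : Subgroup G} {e : MonoidAlgebra k G} (h : IsPair p H P e) : Fix P e :=
  fix_of_supp_centralizer (h.blk.cen.1.mono inf_le_right)

theorem IsPair.br_self {H P : Subgroup G} {e : MonoidAlgebra k G} (h : IsPair p H P e) : Br P e = e :=
  cut_eq_self (h.blk.cen.1.mono inf_le_right)

/-- Normal inclusion. -/
structure NStep (p : ℕ) (H Q : Subgroup G) (f : MonoidAlgebra k G) (P : Subgroup G) (e : MonoidAlgebra k G) : Prop where
  left : IsPair p H Q f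
  right : IsPair p H P e
  le : Q ≤ P
  nor : P ≤ Subgroup.normalizer (Q : Set G)
  fix : Fix P f
  mul : e * Br P f = e

/-- Inclusion. -/
def LE' (p : ℕ) (H Q : Subgroup G) (f : MonoidAlgebra k G) (P : Subgroup G) (e : MonoidAlgebra k G) : Prop :=
  Relation.ReflTransGen (fun a b : Subgroup G × MonoidAlgebra k G => NStep p H a.1 a.2 b.1 b.2) (Q, f) (P, e)

theorem LE'.refl {H P : Subgroup G} {e : MonoidAlgebra k G} : LE' p H P e P e := Relation.ReflTransGen.refl

theorem LE'.trans {H P Q R : Subgroup G} {e f g : MonoidAlgebra k G} (h : LE' p H P e Q f) (h' : LE' p H Q f R g) :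
    LE' p H P e R g := Relation.ReflTransGen.trans h h'

theorem NStep.le' {H P Q : Subgroup G} {e f : MonoidAlgebra k G} (h : NStep p H Q f P e) : LE' p H Q f P e :=
  Relation.ReflTransGen.single h

theorem le'_induction {H : Subgroup G} {P : Subgroup G} {e : MonoidAlgebra k G}
    {motive : Subgroup G → MonoidAlgebra k G → Prop} (base : motive P e)
    (step : ∀ Q f R g, NStep p H Q f R g → LE' p H R g P e → motive R g → motive Q f)
    {Q : Subgroup G} {f : MonoidAlgebra k G} (h : LE' p H Q f P e) : motive Q f := by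
  have : ∀ a : Subgroup G × MonoidAlgebra k G,
      Relation.ReflTransGen (fun a b : Subgroup G × MonoidAlgebra k G => NStep p H a.1 a.2 b.1 b.2) a (P, e) →
      motive a.1 a.2 := by
    intro a ha
    induction ha using Relation.ReflTransGen.head_induction_on with
    | refl => exact base
    | head hh ht ih => exact step _ _ _ _ hh ht ih
  exact this (Q, f) h

theorem LE'.subgroup_le {H P Q : Subgroup G} {e f : MonoidAlgebra k G} (h : LE' p H Q f P e) : Q ≤ P :=
  le'_induction (motive := fun R _ => R ≤ P) le_rfl (fun _ _ _ _ hs _ ih => hs.le.trans ih) h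

theorem LE'.isPair {H P Q : Subgroup G} {e f : MonoidAlgebra k G} (he : IsPair p H P e) (h : LE' p H Q f P e) :
    IsPair p H Q f :=
  le'_induction (motive := fun R g => IsPair p H R g) he (fun _ _ _ _ hs _ _ => hs.left) h

theorem nstep_self_eq {H Q : Subgroup G} {e f : MonoidAlgebra k G} (h : NStep p H Q f Q e) : f = e := by
  have h1 := h.mul
  rw [h.left.br_self] at h1
  rcases h.right.blk.eq_or_mul_eq_zero h.left.blk with h2 | h2
  · exact absurd (h1.symm.trans h2) h.right.blk.ne
  · exact h2.symm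

variable (hc : Complete k G)
include hc

/-- Exactly one normal subpair on a normal subgroup. -/
theorem existsUnique_nstep {H P Q : Subgroup G} {e : MonoidAlgebra k G} (he : IsPair p H P e) (hQP : Q ≤ P)
    (hn : P ≤ Subgroup.normalizer (Q : Set G)) : ∃! f, NStep p H Q f P e := by
  classical
  obtain ⟨s, hs, h1⟩ := hc (CH H Q)
  have hQ : IsPGroup p Q := he.isP.to_le hQP
  have hmem : ∀ f : MonoidAlgebra k G, IsBlk (CH H Q) f → f ∈ s := fun f hf => mem_of_blk hc hs h1 hf
  have hstab : ∀ u ∈ P, ∀ f ∈ s, cj u f ∈ s := by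
    intro u hu f hf
    refine hmem _ ?_
    have h := (hs f hf).cj u
    rwa [normalizer_CH (Subgroup.le_normalizer (he.le hu)) (hn hu)] at h
  letI : MulAction P s :=
    { smul := fun u f => ⟨cj (u : G) f.1, hstab u u.2 f.1 f.2⟩
      one_smul := fun f => Subtype.ext (cj_one_apply f.1)
      mul_smul := fun u v f => Subtype.ext (cj_cj (u : G) (v : G) f.1).symm }
  have hfix : ∀ f : s, (∀ u : P, u • f = f) ↔ Fix P f.1 :=
    fun f => ⟨fun h u hu => congrArg Subtype.val (h ⟨u, hu⟩), fun h u => Subtype.ext (h u u.2)⟩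
  have hsum : Br P (1 : MonoidAlgebra k G) = ∑ f : s with (∀ u : P, u • f = f), Br P f.1 := by
    ext x
    rw [← h1, ← Finset.sum_coe_sort, map_sum, MonoidAlgebra.coeff_sum, Finsupp.finsetSum_apply,
      MonoidAlgebra.coeff_sum, Finsupp.finsetSum_apply]
    refine sum_eq_sum_fixed he.isP (fun f : s => (Br P f.1).coeff x) fun u f => ?_
    show (Br P (cj (u : G) f.1)).coeff x = (Br P f.1).coeff x
    by_cases hx : x ∈ Subgroup.centralizer (P : Set G)
    · rw [Br, coeff_cut_of_mem _ hx, coeff_cut_of_mem _ hx, coeff_cj]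
      congr 1
      rw [mul_assoc, ← Subgroup.mem_centralizer_iff.1 hx _ u.2, inv_mul_cancel_left]
    · rw [Br, coeff_cut_of_notMem _ hx, coeff_cut_of_notMem _ hx]
  obtain ⟨f, hf, hne⟩ : ∃ f ∈ (Finset.univ.filter fun f : s => ∀ u : P, u • f = f), e * Br P f.1 ≠ 0 := by
    by_contra hcon
    push Not at hcon
    refine he.blk.ne ?_
    rw [← mul_one e, ← br_one (k := k) P, hsum, Finset.mul_sum]
    exact Finset.sum_eq_zero hcon
  have hfF : Fix P f.1 := (hfix f).1 (Finset.mem_filter.1 hf).2
  have hfP : IsPair p H Q f.1 := ⟨hQ, hQP.trans he.le, hs f.1 f.2⟩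
  have hm : e * Br P f.1 = e :=
    (he.blk.mul_idem (cenIn_br hQP (hs f.1 f.2).cen) (by
      rw [← br_mul he.isP hfF hfF, (hs f.1 f.2).idem])).resolve_left hne
  refine ⟨f.1, ⟨hfP, he, hQP, hn, hfF, hm⟩, fun g hg => ?_⟩
  rcases hg.left.blk.eq_or_mul_eq_zero hfP.blk with h | h
  · exfalso
    apply he.blk.ne
    have h2 := congrArg (fun t => e * Br P t) h
    simp only [br_mul he.isP hg.fix hfF, map_zero, mul_zero, ← mul_assoc, hg.mul, hm] at h2
    exact h2
  · exact h

/-- Refinement of a normal step. -/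
theorem nstep_down {H Q R₀ R₁ : Subgroup G} {f e₀ e₁ : MonoidAlgebra k G} (h : NStep p H Q f R₁ e₁)
    (h' : NStep p H R₀ e₀ R₁ e₁) (hQR : Q ≤ R₀) : NStep p H Q f R₀ e₀ := by
  refine ⟨h.left, h'.left, hQR, h'.le.trans h.nor, h.fix.mono h'.le, ?_⟩
  have hfF : Fix R₀ f := h.fix.mono h'.le
  have hfix1 : Fix R₁ (Br R₀ f) := fix_of_coeff fun u hu x => by
    have hiff : u * x * u⁻¹ ∈ Subgroup.centralizer (R₀ : Set G) ↔ x ∈ Subgroup.centralizer (R₀ : Set G) := by
      have key : ∀ v ∈ R₁, ∀ y, y ∈ Subgroup.centralizer (R₀ : Set G) → v * y * v⁻¹ ∈ Subgroup.centralizer (R₀ : Set G) := by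
        intro v hv y hy
        refine Subgroup.mem_centralizer_iff.2 fun q hq => ?_
        have hq' : v⁻¹ * q * v ∈ R₀ := by
          simpa using (Subgroup.mem_normalizer_iff.1 (Subgroup.inv_mem _ (h'.nor hv)) q).1 hq
        calc q * (v * y * v⁻¹) = v * ((v⁻¹ * q * v) * y) * v⁻¹ := by group
          _ = v * (y * (v⁻¹ * q * v)) * v⁻¹ := by rw [Subgroup.mem_centralizer_iff.1 hy _ hq']
          _ = _ := by group
      exact ⟨fun h3 => by simpa [mul_assoc] using key u⁻¹ (R₁.inv_mem hu) _ h3, key u hu x⟩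
    by_cases hx : x ∈ Subgroup.centralizer (R₀ : Set G)
    · rw [Br, coeff_cut_of_mem _ hx, coeff_cut_of_mem _ (hiff.2 hx), h.fix.coeff hu]
    · rw [Br, coeff_cut_of_notMem _ hx, coeff_cut_of_notMem _ (fun h3 => hx (hiff.1 h3))]
  refine (h'.left.blk.mul_idem (cenIn_br hQR h.left.blk.cen)
    (by rw [← br_mul h'.left.isP hfF hfF, h.left.blk.idem])).resolve_left fun h0 => h.right.blk.ne ?_
  have h2 := congrArg (fun t => e₁ * Br R₁ t) h0
  simp only [br_mul h.right.isP h'.fix hfix1, br_br h'.le, map_zero, mul_zero, ← mul_assoc, h'.mul, h.mul] at h2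
  exact h2

/-- Subpairs exist and are unique. -/
theorem existsUnique_below : ∀ (n : ℕ) {H P Q : Subgroup G} {e : MonoidAlgebra k G}, IsPair p H P e → Q ≤ P →
    Nat.card P - Nat.card Q ≤ n → ∃! f, LE' p H Q f P e := by
  intro n
  induction n using Nat.strong_induction_on with
  | _ n ih =>
    intro H P Q e he hQP hn
    by_cases hQ : Q = P
    · subst hQ
      refine ⟨e, LE'.refl, fun f hf => ?_⟩
      exact le'_induction (motive := fun R g => R = Q → g = e) (fun _ => rfl)
        (fun R g R' g' hs hl ihm hR => by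
          subst hR
          obtain rfl : R = R' := le_antisymm hs.le hl.subgroup_le
          rw [nstep_self_eq hs, ihm rfl]) hf rfl
    have hlt : Q < P := lt_of_le_of_ne hQP hQ
    set N := P ⊓ Subgroup.normalizer (Q : Set G) with hN
    have hQN : Q < N := by
      refine lt_of_le_of_ne (le_inf hQP Subgroup.le_normalizer) fun h => ?_
      haveI : Group.IsNilpotent P := he.isP.isNilpotent
      have h1 := normalizerCondition_of_isNilpotent (G := P) (Q.subgroupOf P)
        (lt_top_iff_ne_top.2 fun htop => hlt.not_ge (Subgroup.subgroupOf_eq_top.1 htop))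
      obtain ⟨x, hx, hxQ⟩ := SetLike.exists_of_lt h1
      apply hxQ
      have hxN : (x : G) ∈ N := by
        refine ⟨x.2, Subgroup.mem_normalizer_iff.2 fun y => ?_⟩
        constructor
        · intro hy
          exact (Subgroup.mem_normalizer_iff.1 hx ⟨y, hQP hy⟩).1 hy
        · intro hy
          have hyP : y ∈ P := by
            have := P.mul_mem (P.mul_mem (P.inv_mem x.2) (hQP hy)) x.2
            simpa [mul_assoc] using this
          exact (Subgroup.mem_normalizer_iff.1 hx ⟨y, hyP⟩).2 hy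
      rw [← h] at hxN
      exact hxN
    have hcard : ∀ R : Subgroup G, Q < R → R ≤ P → Nat.card P - Nat.card R < n := by
      intro R hR hRP
      have h1 : Nat.card Q < Nat.card R := by
        refine lt_of_le_of_ne (Subgroup.card_le_of_le hR.le) fun h => hR.ne (Subgroup.eq_of_le_of_card_ge hR.le h.ge)
      have h2 : Nat.card R ≤ Nat.card P := Subgroup.card_le_of_le hRP
      omega
    obtain ⟨eN, heN, huN⟩ := ih _ (hcard N hQN inf_le_left) he inf_le_left le_rfl
    have heNp := heN.isPair he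
    obtain ⟨f₀, hf₀, huf⟩ := existsUnique_nstep hc heNp (le_inf hQP Subgroup.le_normalizer) inf_le_right
    refine ⟨f₀, hf₀.le'.trans heN, fun f hf => huf f ?_⟩
    refine le'_induction (motive := fun R g => R = Q → NStep p H Q g N eN) (fun h => absurd h.symm hQ)
      (fun R g R' g' hs hl ihm hR => ?_) hf rfl
    subst hR
    by_cases hR' : R' = R
    · subst hR'
      rw [nstep_self_eq hs]; exact ihm rfl
    have hRlt : R < R' := lt_of_le_of_ne hs.le (Ne.symm hR')
    have hR'P : R' ≤ P := hl.subgroup_le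
    have hR'N : R' ≤ N := le_inf hR'P hs.nor
    obtain ⟨g₁, hg₁, -⟩ : ∃! g₁, LE' p H R' g₁ N eN := ih _ (by
      have h1 : Nat.card N ≤ Nat.card P := Subgroup.card_le_of_le inf_le_left
      have := hcard R' hRlt hR'P
      omega) heNp hR'N le_rfl
    have hg' : g' = g₁ := (ih _ (hcard R' hRlt hR'P) he hR'P le_rfl).unique hl (hg₁.trans heN)
    rw [← hg'] at hg₁
    have hdown : NStep p H R f₀ R' g' :=
      le'_induction (motive := fun S a => R ≤ S → NStep p H R f₀ S a) (fun _ => hf₀)
        (fun S a S' a' hs' _ ih' hRS => nstep_down hc (ih' (hRS.trans hs'.le)) hs' hRS) hg₁ hs.le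
    have := (existsUnique_nstep hc hs.right hs.le hs.nor).unique hs hdown
    rw [this]
    exact hf₀

theorem exists_below {H P Q : Subgroup G} {e : MonoidAlgebra k G} (he : IsPair p H P e) (hQP : Q ≤ P) :
    ∃ f, LE' p H Q f P e := (existsUnique_below hc _ he hQP le_rfl).exists

theorem below_unique {H P Q : Subgroup G} {e f f' : MonoidAlgebra k G} (he : IsPair p H P e)
    (h : LE' p H Q f P e) (h' : LE' p H Q f' P e) : f = f' :=
  (existsUnique_below hc _ he h.subgroup_le le_rfl).unique h h'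

/-- Subpairs in the normalizer are normal subpairs. -/
theorem LE'.nstep {H P Q : Subgroup G} {e f : MonoidAlgebra k G} (he : IsPair p H P e)
    (h : LE' p H Q f P e) (hn : P ≤ Subgroup.normalizer (Q : Set G)) : NStep p H Q f P e := by
  obtain ⟨g, hg, -⟩ := existsUnique_nstep hc he h.subgroup_le hn
  rwa [below_unique hc he h hg.le']

omit hc in
/-- Pairs of a block. -/
def OfBlk (p : ℕ) (H : Subgroup G) (E : MonoidAlgebra k G) (P : Subgroup G) (e : MonoidAlgebra k G) : Prop :=
  IsBlk H E ∧ IsPair p H P e ∧ e * Br P E = e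

omit hc in
theorem fix_of_cenIn {H P : Subgroup G} {E : MonoidAlgebra k G} (hE : CenIn H E) (hP : P ≤ H) : Fix P E :=
  hE.2.mono hP

theorem ofBlk_iff_of_nstep {H P Q : Subgroup G} {E e f : MonoidAlgebra k G} (h : NStep p H Q f P e) :
    OfBlk p H E P e ↔ OfBlk p H E Q f := by
  constructor
  · rintro ⟨hE, -, hm⟩
    refine ⟨hE, h.left, ?_⟩
    have hEF : Fix P E := fix_of_cenIn hE.cen h.right.le
    have hQF : Fix Q E := hEF.mono h.le
    refine (h.left.blk.mul_idem (cenIn_br_top hE.cen) (by rw [← br_mul h.left.isP hQF hQF, hE.idem])).resolve_left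
      fun h0 => h.right.blk.ne ?_
    have hBF : Fix P (Br Q E) := by
      intro u hu
      rw [Br, cj_cut, show (Subgroup.centralizer (Q : Set G)).map (MulAut.conj u).toMonoidHom =
        Subgroup.centralizer (Q : Set G) by
          have := normalizer_CH (H := (⊤ : Subgroup G)) (P := Q) (u := u)
            (Subgroup.le_normalizer (Subgroup.mem_top u)) (h.nor hu)
          simpa [CH] using this, hEF u hu]
    have h2 := congrArg (fun t => e * Br P t) h0
    simp only [br_mul h.right.isP h.fix hBF, br_br h.le, map_zero, mul_zero, ← mul_assoc, h.mul, hm] at h2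
    exact h2
  · rintro ⟨hE, -, hm⟩
    refine ⟨hE, h.right, ?_⟩
    have hEF : Fix P E := fix_of_cenIn hE.cen h.right.le
    have hBF : Fix P (Br Q E) := by
      intro u hu
      rw [Br, cj_cut, show (Subgroup.centralizer (Q : Set G)).map (MulAut.conj u).toMonoidHom =
        Subgroup.centralizer (Q : Set G) by
          have := normalizer_CH (H := (⊤ : Subgroup G)) (P := Q) (u := u)
            (Subgroup.le_normalizer (Subgroup.mem_top u)) (h.nor hu)
          simpa [CH] using this, hEF u hu]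
    have h2 := congrArg (fun t => e * Br P t) hm
    simp only [br_mul h.right.isP h.fix hBF, br_br h.le, ← mul_assoc, h.mul] at h2
    exact h2

theorem ofBlk_iff_of_le {H P Q : Subgroup G} {E e f : MonoidAlgebra k G}
    (h : LE' p H Q f P e) : OfBlk p H E P e ↔ OfBlk p H E Q f :=
  le'_induction (motive := fun R g => OfBlk p H E P e ↔ OfBlk p H E R g) Iff.rfl
    (fun _ _ _ _ hs _ ih => ih.trans (ofBlk_iff_of_nstep hc hs)) h

omit hc in
theorem ofBlk_unique {H P : Subgroup G} {E E' e : MonoidAlgebra k G} (h : OfBlk p H E P e) (h' : OfBlk p H E' P e) :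
    E = E' := by
  rcases h.1.eq_or_mul_eq_zero h'.1 with h0 | h0
  · exfalso
    apply h.2.1.blk.ne
    have h2 := congrArg (fun t => e * Br P t) h0
    simp only [br_mul h.2.1.isP (fix_of_cenIn h.1.cen h.2.1.le) (fix_of_cenIn h'.1.cen h.2.1.le), map_zero, mul_zero,
      ← mul_assoc, h.2.2, h'.2.2] at h2
    exact h2
  · exact h0

theorem exists_ofBlk {H P : Subgroup G} {e : MonoidAlgebra k G} (he : IsPair p H P e) : ∃ E, OfBlk p H E P e := by
  obtain ⟨s, hs, h1⟩ := hc H
  obtain ⟨E, hE, hne⟩ : ∃ E ∈ s, e * Br P E ≠ 0 := by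
    by_contra hcon
    push Not at hcon
    refine he.blk.ne ?_
    rw [← mul_one e, ← br_one (k := k) P, ← h1, map_sum, Finset.mul_sum]
    exact Finset.sum_eq_zero hcon
  have hF : Fix P E := fix_of_cenIn (hs E hE).cen he.le
  exact ⟨E, hs E hE, he, (he.blk.mul_idem (cenIn_br_top (hs E hE).cen)
    (by rw [← br_mul he.isP hF hF, (hs E hE).idem])).resolve_left hne⟩

/-- Every `p`-subgroup where the block does not vanish carries a pair. -/
theorem exists_pair {H P : Subgroup G} {E : MonoidAlgebra k G} (hE : IsBlk H E) (hP : IsPGroup p P) (hPH : P ≤ H)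
    (hne : Br P E ≠ 0) : ∃ e, OfBlk p H E P e := by
  have hF : Fix P E := fix_of_cenIn hE.cen hPH
  obtain ⟨e, he, hm⟩ := exists_blk_le hc (K := CH H P) hne (cenIn_br_top hE.cen)
    (by rw [← br_mul hP hF hF, hE.idem])
  exact ⟨e, hE, ⟨hP, hPH, he⟩, hm⟩

omit hc in
theorem OfBlk.br_ne {H P : Subgroup G} {E e : MonoidAlgebra k G} (h : OfBlk p H E P e) : Br P E ≠ 0 := fun h0 =>
  h.2.1.blk.ne (by rw [← h.2.2, h0, mul_zero])

omit hc in
/-- Maximal pairs. -/
def IsMax (p : ℕ) (H : Subgroup G) (E : MonoidAlgebra k G) (P : Subgroup G) (e : MonoidAlgebra k G) : Prop :=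
  OfBlk p H E P e ∧ ∀ R g, OfBlk p H E R g → LE' p H P e R g → R = P

omit hc in
theorem exists_max {H P : Subgroup G} {E e : MonoidAlgebra k G} (h : OfBlk p H E P e) :
    ∃ R g, IsMax p H E R g ∧ LE' p H P e R g := by
  classical
  haveI : Finite (Subgroup G) := inferInstance
  obtain ⟨R, ⟨g, hg, hle⟩, hmax⟩ := (Set.toFinite
    {R : Subgroup G | ∃ g, OfBlk p H E R g ∧ LE' p H P e R g}).exists_maximal ⟨P, e, h, LE'.refl⟩
  exact ⟨R, g, ⟨hg, fun S a hS hRS => le_antisymm (hmax ⟨a, hS, hle.trans hRS⟩ hRS.subgroup_le) hRS.subgroup_le⟩, hle⟩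

/-- In the stabilizer, `p`-subgroups centralizing the support of the idempotent of a maximal pair are inside it. -/
theorem le_of_max {H P R : Subgroup G} {E e : MonoidAlgebra k G} (h : IsMax p H E P e) (hR : IsPGroup p R)
    (hRH : R ≤ H) (hRN : R ≤ Subgroup.normalizer (P : Set G)) (hRe : Fix R e) {x : G} (hx : e.coeff x ≠ 0)
    (hRx : x ∈ Subgroup.centralizer (R : Set G)) : R ≤ P := by
  set S := P ⊔ R with hS
  have hSp : IsPGroup p S := h.1.2.1.isP.to_sup_of_normal_left' hR hRN
  have hSH : S ≤ H := sup_le h.1.2.1.le hRH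
  have hSN : S ≤ Subgroup.normalizer (P : Set G) := sup_le Subgroup.le_normalizer hRN
  have hSF : Fix S e := by
    intro u hu
    have hle : S ≤ ({ carrier := {u | cj u e = e}
                      mul_mem' := fun {a b} ha hb => by
                        show cj (a * b) e = e
                        rw [← cj_cj, (hb : cj b e = e)]; exact ha
                      one_mem' := cj_one_apply e
                      inv_mem' := fun {a} ha => by
                        show cj a⁻¹ e = e
                        conv_lhs => rw [← (ha : cj a e = e)]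
                        exact cj_inv_cj a e } : Subgroup G) :=
      sup_le (fun u hu => h.1.2.1.fix u hu) (fun u hu => hRe u hu)
    exact hle hu
  have hxS : x ∈ Subgroup.centralizer (S : Set G) := by
    have hxP : x ∈ Subgroup.centralizer (P : Set G) := (h.1.2.1.blk.cen.1 x hx).2
    refine Subgroup.mem_centralizer_iff.2 fun u hu => ?_
    have hle : S ≤ Subgroup.centralizer ({x} : Set G) := sup_le
      (fun u hu => Subgroup.mem_centralizer_singleton_iff.2 (Subgroup.mem_centralizer_iff.1 hxP u hu))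
      (fun u hu => Subgroup.mem_centralizer_singleton_iff.2 (Subgroup.mem_centralizer_iff.1 hRx u hu))
    exact Subgroup.mem_centralizer_singleton_iff.1 (hle hu)
  have hne : Br S e ≠ 0 := fun h0 => hx (by
    have := congrArg (fun t : MonoidAlgebra k G => t.coeff x) h0
    simpa [Br, coeff_cut_of_mem _ hxS] using this)
  obtain ⟨g, hg, hm⟩ := exists_blk_le hc (K := CH H S) hne (cenIn_br le_sup_left h.1.2.1.blk.cen)
    (by rw [← br_mul hSp hSF hSF, h.1.2.1.blk.idem])
  have hstep : NStep p H P e S g := ⟨h.1.2.1, ⟨hSp, hSH, hg⟩, le_sup_left, hSN, hSF, hm⟩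
  have := h.2 S g ((ofBlk_iff_of_nstep hc hstep).2 h.1) hstep.le'
  exact this ▸ le_sup_right

/-- The transfer of a maximal pair: nonzero at its conjugates only. -/
theorem exists_transfer {H P : Subgroup G} {E e : MonoidAlgebra k G} (h : IsMax p H E P e) :
    ∃ z : MonoidAlgebra k G, CenIn H z ∧
      (∀ R : Subgroup G, IsPGroup p R → R ≤ H → Nat.card P < Nat.card R → Br R z = 0) ∧
      (∀ R g, IsPair p H R g → Nat.card R = Nat.card P → g * Br R z ≠ 0 →
        ∃ x ∈ H, R = P.map (MulAut.conj x).toMonoidHom ∧ g = cj x e) ∧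
      e * Br P z = e := by
  classical
  let img : H → Subgroup G × MonoidAlgebra k G := fun x => (P.map (MulAut.conj (x : G)).toMonoidHom, cj (x : G) e)
  set O := Finset.univ.image img with hO
  have himg : ∀ x y : H, img (x * y) = ((img y).1.map (MulAut.conj (x : G)).toMonoidHom, cj (x : G) (img y).2) := by
    intro x y
    refine Prod.ext ?_ ?_
    · show P.map _ = (P.map _).map _
      rw [Subgroup.map_map]
      congr 1
      ext u; simp [mul_assoc]
    · show cj ((x * y : H) : G) e = cj (x : G) (cj (y : G) e)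
      rw [cj_cj]; rfl
  have hsmul : ∀ x : H, ∀ w ∈ O, ((w.1.map (MulAut.conj (x : G)).toMonoidHom, cj (x : G) w.2) :
      Subgroup G × MonoidAlgebra k G) ∈ O := by
    intro x w hw
    obtain ⟨y, -, rfl⟩ := Finset.mem_image.1 hw
    exact Finset.mem_image.2 ⟨x * y, Finset.mem_univ _, himg x y⟩
  set z := ∑ w ∈ O, w.2 with hz
  have hOsupp : ∀ w ∈ O, Supp (CH H w.1) w.2 := by
    intro w hw
    obtain ⟨y, -, rfl⟩ := Finset.mem_image.1 hw
    refine (supp_cj (y : G) h.1.2.1.blk.cen.1).mono ?_
    rintro _ ⟨u, hu, rfl⟩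
    refine ⟨H.mul_mem (H.mul_mem y.2 hu.1) (H.inv_mem y.2), Subgroup.mem_centralizer_iff.2 ?_⟩
    rintro _ ⟨q, hq, rfl⟩
    have := Subgroup.mem_centralizer_iff.1 hu.2 q hq
    simp only [MulEquiv.toMonoidHom_eq_coe, MonoidHom.coe_coe, MulAut.conj_apply]
    calc (y : G) * q * (y : G)⁻¹ * ((y : G) * u * (y : G)⁻¹) = (y : G) * (q * u) * (y : G)⁻¹ := by group
      _ = _ := by rw [this]; group
  have hcen : CenIn H z := by
    refine ⟨supp_sum _ _ fun w hw => (hOsupp w hw).mono inf_le_left, fun u hu => ?_⟩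
    rw [hz, map_sum]
    refine Finset.sum_bij (fun w _ => (w.1.map (MulAut.conj u).toMonoidHom, cj u w.2))
      (fun w hw => hsmul ⟨u, hu⟩ w hw) (fun a _ b _ hab => ?_) (fun b hb => ?_) (fun w _ => rfl)
    · refine Prod.ext ?_ (cj_injective u (congrArg Prod.snd hab))
      exact Subgroup.map_injective (MulAut.conj u).injective (congrArg Prod.fst hab)
    · refine ⟨_, hsmul ⟨u⁻¹, H.inv_mem hu⟩ b hb, Prod.ext ?_ (cj_cj_inv u b.2)⟩
      show ((b.1.map (MulAut.conj u⁻¹).toMonoidHom).map (MulAut.conj u).toMonoidHom) = b.1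
      rw [Subgroup.map_map, show ((MulAut.conj u).toMonoidHom.comp (MulAut.conj u⁻¹).toMonoidHom) = MonoidHom.id G from
        MonoidHom.ext fun x => by simp [mul_assoc], Subgroup.map_id]
  -- `p`-subgroups fixing a term with support in their centralizer
  have hle : ∀ (R : Subgroup G), IsPGroup p R → R ≤ H → ∀ (x : G), x ∈ Subgroup.centralizer (R : Set G) →
      ∀ w ∈ O, R ≤ Subgroup.normalizer (w.1 : Set G) → Fix R w.2 → w.2.coeff x ≠ 0 → R ≤ w.1 := by
    intro R hR hRH x hx w hw hRN hRF hne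
    obtain ⟨y, -, rfl⟩ := Finset.mem_image.1 hw
    set R' := R.map (MulAut.conj (y : G)⁻¹).toMonoidHom with hR'
    have h1 : R' ≤ P := by
      refine le_of_max hc h (x := (y : G)⁻¹ * x * y) (hR.map _) ?_ ?_ ?_ ?_ ?_
      · rintro _ ⟨u, hu, rfl⟩
        have := H.mul_mem (H.mul_mem (H.inv_mem y.2) (hRH hu)) y.2
        simpa using this
      · rintro _ ⟨u, hu, rfl⟩
        have h3 := Subgroup.mem_normalizer_iff.1 (hRN hu)
        refine Subgroup.mem_normalizer_iff.2 fun q => ?_
        have h4 := h3 ((y : G) * q * (y : G)⁻¹)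
        have hmap : ∀ t, t ∈ (img y).1 ↔ (y : G)⁻¹ * t * y ∈ P := fun t => by
          refine ⟨?_, fun ht => ⟨_, ht, by simp [mul_assoc]⟩⟩
          rintro ⟨t', ht', rfl⟩
          simpa [mul_assoc] using ht'
        rw [hmap, hmap] at h4
        simpa [mul_assoc] using h4
      · rintro _ ⟨u, hu, rfl⟩
        have h3 := congrArg (cj (y : G)⁻¹) (hRF u hu)
        rw [show (img y).2 = cj (y : G) e from rfl, cj_cj, cj_cj, cj_inv_cj] at h3
        simpa [mul_assoc] using h3
      · rw [show (img y).2 = cj (y : G) e from rfl, coeff_cj] at hne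
        exact hne
      · refine Subgroup.mem_centralizer_iff.2 ?_
        rintro _ ⟨u, hu, rfl⟩
        have := Subgroup.mem_centralizer_iff.1 hx u hu
        simp only [MulEquiv.toMonoidHom_eq_coe, MonoidHom.coe_coe, MulAut.conj_apply, inv_inv]
        calc (y : G)⁻¹ * u * y * ((y : G)⁻¹ * x * y) = (y : G)⁻¹ * (u * x) * y := by group
          _ = _ := by rw [this]; group
    intro u hu
    exact ⟨(y : G)⁻¹ * u * y, h1 ⟨u, hu, by simp⟩, by simp [mul_assoc]⟩
  -- the truncation
  have hbr : ∀ (R : Subgroup G), IsPGroup p R → R ≤ H → Nat.card P ≤ Nat.card R →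
      Br R z = ∑ w ∈ O.filter (fun w => w.1 = R), w.2 := by
    intro R hR hRH hcardR
    ext x
    by_cases hx : x ∈ Subgroup.centralizer (R : Set G)
    · rw [Br, coeff_cut_of_mem _ hx, hz, MonoidAlgebra.coeff_sum, Finsupp.finsetSum_apply,
        MonoidAlgebra.coeff_sum, Finsupp.finsetSum_apply, ← Finset.sum_coe_sort O]
      letI : MulAction R O :=
        { smul := fun u w => ⟨(w.1.1.map (MulAut.conj (u : G)).toMonoidHom, cj (u : G) w.1.2), hsmul ⟨u, hRH u.2⟩ w.1 w.2⟩
          one_smul := fun w => Subtype.ext (Prod.ext (by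
            show w.1.1.map _ = _
            rw [Subgroup.coe_one, map_one]; exact Subgroup.map_id _) (cj_one_apply _))
          mul_smul := fun u v w => Subtype.ext (Prod.ext (by
            show w.1.1.map _ = (w.1.1.map _).map _
            rw [Subgroup.map_map]; congr 1; ext t; simp [mul_assoc]) (cj_cj _ _ _).symm) }
      rw [sum_eq_sum_fixed hR (fun w : O => w.1.2.coeff x) ?_, ← Finset.sum_coe_sort (O.filter fun w => w.1 = R)]
      · have hfixiff : ∀ w : O, (∀ u : R, u • w = w) → w.1.2.coeff x ≠ 0 → w.1.1 = R := by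
          intro w hw hne
          have hRN : R ≤ Subgroup.normalizer (w.1.1 : Set G) := fun u hu => Subgroup.mem_normalizer_iff.2 fun q => by
            have h2 : w.1.1.map (MulAut.conj u).toMonoidHom = w.1.1 :=
              congrArg (fun a : O => a.1.1) (hw ⟨u, hu⟩)
            constructor
            · intro hq
              rw [← h2]; exact ⟨q, hq, by simp⟩
            · intro hq
              rw [← h2] at hq
              obtain ⟨t, ht, he⟩ := hq
              simp only [MulEquiv.toMonoidHom_eq_coe, MonoidHom.coe_coe, MulAut.conj_apply] at he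
              rwa [← mul_left_cancel (mul_right_cancel he)]
          have hRF : Fix R w.1.2 := fun u hu => congrArg (fun a : O => a.1.2) (hw ⟨u, hu⟩)
          have hle1 := hle R hR hRH x hx w.1 w.2 hRN hRF hne
          obtain ⟨y, -, hy⟩ := Finset.mem_image.1 w.2
          have hcw : Nat.card w.1.1 = Nat.card P := by
            rw [← hy]
            exact Nat.card_congr ((P.equivMapOfInjective _ (MulAut.conj (y : G)).injective).toEquiv.symm)
          exact (Subgroup.eq_of_le_of_card_ge hle1 (hcw ▸ hcardR)).symm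
        refine Finset.sum_bij_ne_zero (fun w hw hne => ⟨w.1, Finset.mem_filter.2 ⟨w.2,
            hfixiff w (Finset.mem_filter.1 hw).2 hne⟩⟩) (fun _ _ _ => Finset.mem_univ _)
          (fun a _ _ b _ _ hab => Subtype.ext (congrArg (fun w => w.1) hab)) (fun w _ hne => ?_) (fun _ _ _ => rfl)
        obtain ⟨hwO, hwR⟩ := Finset.mem_filter.1 w.2
        refine ⟨⟨w.1, hwO⟩, Finset.mem_filter.2 ⟨Finset.mem_univ _, fun u => Subtype.ext (Prod.ext ?_ ?_)⟩, hne, rfl⟩
        · show w.1.1.map _ = w.1.1
          rw [hwR]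
          exact le_antisymm (by rintro _ ⟨t, ht, rfl⟩; exact R.mul_mem (R.mul_mem u.2 ht) (R.inv_mem u.2))
            (fun t ht => ⟨(u : G)⁻¹ * t * u, R.mul_mem (R.mul_mem (R.inv_mem u.2) ht) u.2, by simp [mul_assoc]⟩)
        · exact (fix_of_supp_centralizer (P := w.1.1) ((hOsupp w.1 hwO).mono inf_le_right)).mono hwR.ge u u.2
      · intro u w
        show (cj (u : G) w.1.2).coeff x = _
        rw [coeff_cj]
        congr 1
        rw [mul_assoc, ← Subgroup.mem_centralizer_iff.1 hx _ u.2, inv_mul_cancel_left]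
    · rw [Br, coeff_cut_of_notMem _ hx, MonoidAlgebra.coeff_sum, Finsupp.finsetSum_apply]
      refine (Finset.sum_eq_zero fun w hw => ?_).symm
      by_contra hne
      obtain ⟨hwO, hwR⟩ := Finset.mem_filter.1 hw
      exact hx (hwR ▸ ((hOsupp w hwO) x hne).2)
  refine ⟨z, hcen, fun R hR hRH hlt => ?_, fun R g hg hcard hne => ?_, ?_⟩
  · rw [hbr R hR hRH hlt.le, Finset.sum_eq_zero]
    intro w hw
    obtain ⟨hwO, hwR⟩ := Finset.mem_filter.1 hw
    obtain ⟨y, -, hy⟩ := Finset.mem_image.1 hwO
    exfalso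
    rw [← hwR, ← hy] at hlt
    exact hlt.ne (Nat.card_congr ((P.equivMapOfInjective _ (MulAut.conj (y : G)).injective).toEquiv))
  · rw [hbr R hg.isP hg.le hcard.ge, Finset.mul_sum] at hne
    obtain ⟨w, hw, hwne⟩ := Finset.exists_ne_zero_of_sum_ne_zero hne
    obtain ⟨hwO, hwR⟩ := Finset.mem_filter.1 hw
    obtain ⟨y, -, hy⟩ := Finset.mem_image.1 hwO
    refine ⟨(y : G), y.2, by rw [← hwR, ← hy], ?_⟩
    subst hy
    subst hwR
    have hb : IsBlk (CH H (img y).1) (img y).2 := by
      have h1 := h.1.2.1.blk.cj (y : G)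
      have : (CH H P).map (MulAut.conj (y : G)).toMonoidHom = CH H (img y).1 := by
        refine le_antisymm (fun u hu => ?_) fun u hu => ?_
        · have h2 := hOsupp (img y) hwO
          obtain ⟨v, hv, rfl⟩ := hu
          refine ⟨H.mul_mem (H.mul_mem y.2 hv.1) (H.inv_mem y.2), Subgroup.mem_centralizer_iff.2 ?_⟩
          rintro _ ⟨q, hq, rfl⟩
          have := Subgroup.mem_centralizer_iff.1 hv.2 q hq
          simp only [MulEquiv.toMonoidHom_eq_coe, MonoidHom.coe_coe, MulAut.conj_apply]
          calc (y : G) * q * (y : G)⁻¹ * ((y : G) * v * (y : G)⁻¹) = (y : G) * (q * v) * (y : G)⁻¹ := by group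
            _ = _ := by rw [this]; group
        · refine ⟨(y : G)⁻¹ * u * y, ⟨H.mul_mem (H.mul_mem (H.inv_mem y.2) hu.1) y.2,
            Subgroup.mem_centralizer_iff.2 fun q hq => ?_⟩, by simp [mul_assoc]⟩
          have := Subgroup.mem_centralizer_iff.1 hu.2 ((y : G) * q * (y : G)⁻¹) ⟨q, hq, by simp⟩
          calc q * ((y : G)⁻¹ * u * y) = (y : G)⁻¹ * (((y : G) * q * (y : G)⁻¹) * u) * y := by group
            _ = _ := by rw [this]; group
      rwa [this] at h1
    exact (hg.blk.eq_or_mul_eq_zero hb).resolve_left hwne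
  · rw [hbr P h.1.2.1.isP h.1.2.1.le le_rfl, Finset.mul_sum, Finset.sum_eq_single (P, e)]
    · exact h.1.2.1.blk.idem
    · intro w hw hne
      obtain ⟨hwO, hwR⟩ := Finset.mem_filter.1 hw
      obtain ⟨y, -, hy⟩ := Finset.mem_image.1 hwO
      subst hy
      have hb : IsBlk (CH H P) (img y).2 := by
        have h1 := h.1.2.1.blk.cj (y : G)
        have hyN : (y : G) ∈ Subgroup.normalizer (P : Set G) := by
          refine Subgroup.mem_normalizer_iff.2 fun q => ?_
          have e1 : P.map (MulAut.conj (y : G)).toMonoidHom = P := hwR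
          constructor
          · intro hq
            rw [← e1]; exact ⟨q, hq, by simp⟩
          · intro hq
            rw [← e1] at hq
            obtain ⟨t, ht, he⟩ := hq
            simp only [MulEquiv.toMonoidHom_eq_coe, MonoidHom.coe_coe, MulAut.conj_apply] at he
            rwa [← mul_left_cancel (mul_right_cancel he)]
        rwa [normalizer_CH (Subgroup.le_normalizer y.2) hyN] at h1
      refine (h.1.2.1.blk.eq_or_mul_eq_zero hb).resolve_right fun h2 => hne ?_
      exact Prod.ext hwR h2.symm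
    · intro hn
      refine absurd ?_ hn
      refine Finset.mem_filter.2 ⟨Finset.mem_image.2 ⟨(1 : H), Finset.mem_univ _, Prod.ext ?_ (cj_one_apply e)⟩, rfl⟩
      show P.map _ = P
      rw [Subgroup.coe_one, map_one]
      exact Subgroup.map_id _

/-- Nothing bigger than a maximal pair meets the block. -/
theorem card_le_of_br_ne {H P R : Subgroup G} {E e : MonoidAlgebra k G} (h : IsMax p H E P e) (hR : IsPGroup p R)
    (hRH : R ≤ H) (hne : Br R E ≠ 0) : Nat.card R ≤ Nat.card P := by
  obtain ⟨z, hzc, hz0, -, hz1⟩ := exists_transfer hc h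
  by_contra hlt
  push Not at hlt
  obtain ⟨c, n, hn⟩ := h.1.1.scal z hzc
  have hFP : ∀ {S : Subgroup G}, S ≤ H → Fix S (E * z - c • E) := fun hS =>
    ((fix_of_cenIn h.1.1.cen hS).mul (fix_of_cenIn hzc hS)).sub ((fix_of_cenIn h.1.1.cen hS).smul c)
  -- at the pair
  have h1 := congrArg (fun t => e * Br P t) hn
  simp only [br_pow h.1.2.1.isP (hFP h.1.2.1.le), map_zero, mul_zero, map_sub, map_smul,
    br_mul h.1.2.1.isP (fix_of_cenIn h.1.1.cen h.1.2.1.le) (fix_of_cenIn hzc h.1.2.1.le)] at h1
  have hpow : ∀ m : ℕ, e * (Br P E * Br P z - c • Br P E) ^ m = (1 - c) ^ m • e := by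
    intro m
    induction m with
    | zero => simp
    | succ m ih =>
      rw [pow_succ, ← mul_assoc, ih, smul_mul_assoc, mul_sub, ← mul_assoc, h.1.2.2, hz1, mul_smul_comm, h.1.2.2,
        show e - c • e = (1 - c) • e by rw [sub_smul, one_smul], smul_smul, ← pow_succ]
  rw [hpow] at h1
  have hc1 : c = 1 := by
    rcases smul_eq_zero.1 h1 with h2 | h2
    · exact (sub_eq_zero.1 (pow_eq_zero_iff'.1 h2).1).symm
    · exact absurd h2 h.1.2.1.blk.ne
  -- at the bigger subgroup
  have hid : IsIdempotentElem (Br R E) := by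
    show Br R E * Br R E = Br R E
    rw [← br_mul hR (fix_of_cenIn h.1.1.cen hRH) (fix_of_cenIn h.1.1.cen hRH), h.1.1.idem]
  rcases Nat.eq_zero_or_pos n with rfl | hn0
  · rw [pow_zero] at hn
    exact h.1.1.ne (by rw [← mul_one E, hn, mul_zero])
  obtain ⟨m, rfl⟩ : ∃ m, n = m + 1 := ⟨n - 1, by omega⟩
  have hFE : Fix R (E * z - E) := by
    have := hFP hRH; rwa [hc1, one_smul] at this
  have h5 : Br R ((E * z - E) ^ (m + 1)) = 0 := by
    rw [hc1, one_smul] at hn; rw [hn, map_zero]
  rw [br_pow hR hFE, map_sub, br_mul hR (fix_of_cenIn h.1.1.cen hRH) (fix_of_cenIn hzc hRH), hz0 R hR hRH hlt,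
    mul_zero, zero_sub, neg_pow, hid.pow_succ_eq m] at h5
  rename' h5 => h3
  apply hne
  have h4 := congrArg (fun t => (-1 : MonoidAlgebra k G) ^ (m + 1) * t) h3
  simp only [mul_zero] at h4
  rwa [← mul_assoc, ← pow_add, Even.neg_one_pow ⟨m + 1, rfl⟩, one_mul] at h4

/-- Maximal pairs are conjugate. -/
theorem max_conj {H P R : Subgroup G} {E e g : MonoidAlgebra k G} (h : IsMax p H E P e) (h' : IsMax p H E R g) :
    ∃ x ∈ H, R = P.map (MulAut.conj x).toMonoidHom ∧ g = cj x e := by
  have hc1 := card_le_of_br_ne hc h h'.1.2.1.isP h'.1.2.1.le h'.1.br_ne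
  have hc2 := card_le_of_br_ne hc h' h.1.2.1.isP h.1.2.1.le h.1.br_ne
  obtain ⟨z, hzc, -, hzo, hz1⟩ := exists_transfer hc h
  refine hzo R g h'.1.2.1 (le_antisymm hc1 hc2) fun h0 => ?_
  obtain ⟨c, n, hn⟩ := h.1.1.scal z hzc
  have hFP : ∀ {S : Subgroup G}, S ≤ H → Fix S (E * z - c • E) := fun hS =>
    ((fix_of_cenIn h.1.1.cen hS).mul (fix_of_cenIn hzc hS)).sub ((fix_of_cenIn h.1.1.cen hS).smul c)
  have key : ∀ (S : Subgroup G) (a : MonoidAlgebra k G) (v : k), OfBlk p H E S a → a * Br S z = v • a →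
      (v - c) ^ n = 0 := by
    intro S a v ha hv
    have h1 := congrArg (fun t => a * Br S t) hn
    simp only [br_pow ha.2.1.isP (hFP ha.2.1.le), map_zero, mul_zero, map_sub, map_smul,
      br_mul ha.2.1.isP (fix_of_cenIn h.1.1.cen ha.2.1.le) (fix_of_cenIn hzc ha.2.1.le)] at h1
    have hpow : ∀ m : ℕ, a * (Br S E * Br S z - c • Br S E) ^ m = (v - c) ^ m • a := by
      intro m
      induction m with
      | zero => simp
      | succ m ih =>
        rw [pow_succ, ← mul_assoc, ih, smul_mul_assoc, mul_sub, ← mul_assoc, ha.2.2, hv, mul_smul_comm, ha.2.2,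
          show v • a - c • a = (v - c) • a by rw [sub_smul], smul_smul, ← pow_succ]
    rw [hpow] at h1
    exact (smul_eq_zero.1 h1).resolve_right ha.2.1.blk.ne
  have h1 := key P e 1 h.1 (by rw [hz1, one_smul])
  have h2 := key R g 0 h'.1 (by rw [h0, zero_smul])
  rcases Nat.eq_zero_or_pos n with rfl | hn0
  · simp at h1
  · have hc0 := (pow_eq_zero_iff'.1 h2).1
    have hc1' := (pow_eq_zero_iff'.1 h1).1
    rw [zero_sub, neg_eq_zero] at hc0
    rw [hc0, sub_zero] at hc1'
    exact one_ne_zero hc1'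

end CfsgLib.PairAlg
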