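import Cfsg.Agent.Blocks.PairAlg.GLevel
import Cfsg.Agent.Hall.Pi

/-!
# A `π'`-core in the kernel of the idempotents of pairs

`Kills K a` says that left translation by `K` fixes `a`. Along normal steps of pairs it passes upwards for subgroups
centralizing the bigger group, and downwards for the `π'`-cores of the centralizers.
-/

set_option autoImplicit false
set_option linter.unusedSectionVars false
set_option linter.style.haveILetI false

namespace CfsgLib.PairAlg.PiKernel

open MonoidAlgebra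

section Algebra

variable {k : Type*} [Field k] {G : Type*} [Group G] [Fintype G] {p : ℕ}

/-- Left translation by a subgroup fixes the element. -/
def Kills (K : Subgroup G) (a : MonoidAlgebra k G) : Prop :=
  ∀ u ∈ K, MonoidAlgebra.single u (1 : k) * a = a

/-- The average over a subgroup. -/
noncomputable def av (K : Subgroup G) : MonoidAlgebra k G := by
  classical exact ∑ x : G, MonoidAlgebra.single x (if x ∈ K then (Nat.card K : k)⁻¹ else 0)

theorem coeff_av (K : Subgroup G) (x : G) [Decidable (x ∈ K)] :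
    (av (k := k) K).coeff x = if x ∈ K then (Nat.card K : k)⁻¹ else 0 := by
  classical
  rw [av, MonoidAlgebra.coeff_sum, Finsupp.finsetSum_apply, Finset.sum_eq_single x]
  · simp only [MonoidAlgebra.coeff_single, Finsupp.single_eq_same]
    congr
  · intro y _ hy
    simp [MonoidAlgebra.coeff_single, Finsupp.single_apply, hy]
  · simp

theorem Kills.mono {K L : Subgroup G} (h : L ≤ K) {a : MonoidAlgebra k G} (ha : Kills K a) : Kills L a :=
  fun u hu => ha u (h hu)

theorem Kills.cj {K : Subgroup G} {a : MonoidAlgebra k G} (h : Kills K a) (x : G) :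
    Kills (cm x K) (PairAlg.cj x a) := by
  intro u hu
  have h1 := congrArg (PairAlg.cj x) (h _ (mem_cm.1 hu))
  rw [map_mul] at h1
  convert h1 using 2
  classical
  ext y
  simp only [coeff_cj, MonoidAlgebra.coeff_single, Finsupp.single_apply]
  refine if_congr ⟨fun e => by rw [e], fun e => ?_⟩ rfl rfl
  calc u = x * (x⁻¹ * u * x) * x⁻¹ := by group
    _ = x * (x⁻¹ * y * x) * x⁻¹ := by rw [e]
    _ = y := by group

theorem supp_av (K : Subgroup G) : Supp K (av (k := k) K) := fun x hx => by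
  classical
  rw [coeff_av] at hx
  by_contra h
  exact hx (if_neg h)

theorem fix_av {K H : Subgroup G} (h : H ≤ Subgroup.normalizer (K : Set G)) : Fix H (av (k := k) K) :=
  fix_of_coeff fun u hu x => by
    classical
    rw [coeff_av, coeff_av]
    exact if_congr (Subgroup.mem_normalizer_iff.1 (h hu) x).symm rfl rfl

theorem cenIn_av {K H : Subgroup G} (hKH : K ≤ H) (h : H ≤ Subgroup.normalizer (K : Set G)) :
    CenIn H (av (k := k) K) :=
  ⟨(supp_av K).mono hKH, fix_av h⟩

theorem sum_coeff_av {K : Subgroup G} (hK : (Nat.card K : k) ≠ 0) :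
    ∑ x : G, (av (k := k) K).coeff x = 1 := by
  classical
  simp only [coeff_av]
  rw [← Finset.sum_filter, Finset.sum_const, nsmul_eq_mul, ← Fintype.card_subtype, ← Nat.card_eq_fintype_card]
  exact mul_inv_cancel₀ hK

theorem kills_av (K : Subgroup G) : Kills K (av (k := k) K) := by
  intro u hu
  classical
  ext x
  rw [MonoidAlgebra.coeff_single_mul_apply, one_mul, coeff_av, coeff_av]
  refine if_congr ⟨fun h => ?_, fun h => K.mul_mem (K.inv_mem hu) h⟩ rfl rfl
  have := K.mul_mem hu h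
  rwa [mul_inv_cancel_left] at this

theorem Kills.av_mul {K : Subgroup G} {a : MonoidAlgebra k G} (h : Kills K a) (hK : (Nat.card K : k) ≠ 0) :
    av K * a = a := by
  classical
  have e : ∀ x : G, MonoidAlgebra.single x ((av (k := k) K).coeff x) * a = (av (k := k) K).coeff x • a := by
    intro x
    by_cases hx : x ∈ K
    · conv_rhs => rw [← h x hx]
      rw [← smul_mul_assoc, MonoidAlgebra.smul_single', mul_one]
    · rw [coeff_av, if_neg hx, MonoidAlgebra.single_zero, zero_mul, zero_smul]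
  conv_lhs => rw [← MonoidAlgebra.sum_single (av (k := k) K)]
  rw [Finsupp.sum_fintype _ _ (fun x => by simp), Finset.sum_mul, Finset.sum_congr rfl fun x _ => e x,
    ← Finset.sum_smul, sum_coeff_av hK, one_smul]

theorem av_idem {K : Subgroup G} (hK : (Nat.card K : k) ≠ 0) : av K * av (k := k) K = av K :=
  (kills_av K).av_mul hK

theorem kills_of_av_mul {K : Subgroup G} {a : MonoidAlgebra k G} (h : av K * a = a) : Kills K a := fun u hu => by
  rw [← h, ← mul_assoc, kills_av K u hu]

theorem br_single_mul (R : Subgroup G) {u : G} (hu : u ∈ Subgroup.centralizer (R : Set G))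
    (a : MonoidAlgebra k G) :
    Br R (MonoidAlgebra.single u (1 : k) * a) = MonoidAlgebra.single u (1 : k) * Br R a := by
  ext x
  rw [MonoidAlgebra.coeff_single_mul_apply, one_mul]
  by_cases hx : x ∈ Subgroup.centralizer (R : Set G)
  · rw [Br, coeff_cut_of_mem _ hx, coeff_cut_of_mem _ (Subgroup.mul_mem _ (Subgroup.inv_mem _ hu) hx),
      MonoidAlgebra.coeff_single_mul_apply, one_mul]
  · rw [Br, coeff_cut_of_notMem _ hx, coeff_cut_of_notMem]
    intro h
    have := Subgroup.mul_mem _ hu h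
    rw [mul_inv_cancel_left] at this
    exact hx this

theorem supp_single {S : Subgroup G} {u : G} (hu : u ∈ S) : Supp S (MonoidAlgebra.single u (1 : k)) := fun x hx => by
  classical
  simp [MonoidAlgebra.coeff_single, Finsupp.single_apply] at hx
  exact hx ▸ hu

variable [Fact p.Prime] [CharP k p]

theorem card_ne_zero {K : Subgroup G} (hK : ¬ p ∣ Nat.card K) : (Nat.card K : k) ≠ 0 := fun h =>
  hK ((CharP.cast_eq_zero_iff k p _).1 h)

/-- The Brauer map keeps the sum of the coefficients. -/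
theorem sum_coeff_br {R : Subgroup G} (hR : IsPGroup p R) {a : MonoidAlgebra k G} (ha : Fix R a) :
    ∑ x : G, (Br R a).coeff x = ∑ x : G, a.coeff x := by
  classical
  letI : MulAction R G := MulAction.compHom G (MulAut.conj.comp R.subtype)
  have hs : ∀ (u : R) (g : G), u • g = (u : G) * g * (u : G)⁻¹ := fun u g => rfl
  rw [sum_eq_sum_fixed hR (fun h => a.coeff h) (fun u g => by rw [hs]; exact ha.coeff u.2 g), Finset.sum_filter]
  refine Finset.sum_congr rfl fun h _ => ?_
  have hiff : (∀ u : R, u • h = h) ↔ h ∈ Subgroup.centralizer (R : Set G) := by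
    simp only [hs, mul_inv_eq_iff_eq_mul, Subgroup.mem_centralizer_iff, Subtype.forall, SetLike.mem_coe]
  split_ifs with hf
  · rw [Br, coeff_cut_of_mem _ (hiff.1 hf)]
  · rw [Br, coeff_cut_of_notMem _ (fun k => hf (hiff.2 k))]

theorem br_av {R K : Subgroup G} (hR : IsPGroup p R) (hRK : R ≤ Subgroup.normalizer (K : Set G))
    (hK : ¬ p ∣ Nat.card K) :
    Br R (av (k := k) K) = av (K ⊓ Subgroup.centralizer (R : Set G)) := by
  classical
  set C := Subgroup.centralizer (R : Set G) with hC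
  have hK' : ¬ p ∣ Nat.card ↥(K ⊓ C) := fun h => hK (h.trans (Subgroup.card_dvd_of_le inf_le_left))
  have h1 : ∀ x, (Br R (av (k := k) K)).coeff x = if x ∈ K ⊓ C then (Nat.card K : k)⁻¹ else 0 := by
    intro x
    by_cases hx : x ∈ C
    · rw [Br, coeff_cut_of_mem _ hx, coeff_av]
      exact if_congr ⟨fun h => ⟨h, hx⟩, fun h => h.1⟩ rfl rfl
    · rw [Br, coeff_cut_of_notMem _ hx, if_neg fun h => hx h.2]
  have h2 := sum_coeff_br (k := k) hR (fix_av hRK)
  rw [sum_coeff_av (card_ne_zero hK)] at h2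
  simp only [h1] at h2
  rw [← Finset.sum_filter, Finset.sum_const, nsmul_eq_mul, ← Fintype.card_subtype, ← Nat.card_eq_fintype_card] at h2
  have h3 : (Nat.card K : k)⁻¹ = (Nat.card ↥(K ⊓ C) : k)⁻¹ := (eq_inv_of_mul_eq_one_right h2)
  ext x
  rw [h1, coeff_av, h3]

/-- A block absorbs a subgroup whose centralized part kills a pair under it. -/
theorem absorb {H K R C : Subgroup G} {f g : MonoidAlgebra k G} (hf : IsBlk H f) (hKH : K ≤ H)
    (hHK : H ≤ Subgroup.normalizer (K : Set G)) (hK : ¬ p ∣ Nat.card K) (hR : IsPGroup p R)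
    (hRK : R ≤ Subgroup.normalizer (K : Set G)) (hfR : Fix R f) (hg : g ≠ 0) (hgm : g * Br R f = g)
    (hgC : CenIn C g) (hKC : K ⊓ Subgroup.centralizer (R : Set G) ≤ C)
    (hk : Kills (K ⊓ Subgroup.centralizer (R : Set G)) g) : Kills K f := by
  have hne := card_ne_zero (k := k) hK
  have hne' : (Nat.card ↥(K ⊓ Subgroup.centralizer (R : Set G)) : k) ≠ 0 :=
    card_ne_zero fun h => hK (h.trans (Subgroup.card_dvd_of_le inf_le_left))
  have hz := cenIn_av (k := k) hKH hHK
  refine kills_of_av_mul ?_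
  rw [← hf.cen.comm hz.1]
  refine (hf.mul_idem hz (av_idem hne)).resolve_left fun h0 => hg ?_
  have h1 := congrArg (fun t => g * Br R t) h0
  simp only [br_mul hR hfR (fix_av hRK), br_av hR hRK hK, map_zero, mul_zero, ← mul_assoc, hgm,
    hgC.comm ((supp_av _).mono hKC), hk.av_mul hne'] at h1
  exact h1

/-- The kernel passes to pairs of a block. -/
theorem Kills.br_pair {C R K : Subgroup G} {E a : MonoidAlgebra k G} (h : Kills K E) (hKR : K ≤ C)
    (hCR : C ≤ Subgroup.centralizer (R : Set G)) (ha : CenIn C a) (hm : a * Br R E = a) : Kills K a := by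
  intro u hu
  conv_lhs => rw [← hm]
  rw [← mul_assoc, ← ha.comm (supp_single (hKR hu)), mul_assoc, ← br_single_mul R (hCR (hKR hu)), h u hu, hm]

/-- The kernel goes up along pairs for subgroups centralizing the top. -/
theorem Kills.of_le' {P Q K : Subgroup G} {e f : MonoidAlgebra k G} (h : LE' p ⊤ Q f P e)
    (hK : K ≤ Subgroup.centralizer (P : Set G)) (hf : Kills K f) : Kills K e := by
  revert hf
  refine le'_induction (motive := fun R g => Kills K g → Kills K e) (fun hf => hf) (fun Q f R g hs hl ih hf => ih ?_) h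
  have hKR : K ≤ Subgroup.centralizer (R : Set G) := hK.trans (Subgroup.centralizer_le hl.subgroup_le)
  exact hf.br_pair hKR le_rfl (CH_top R ▸ hs.right.blk.cen) hs.mul

end Algebra

section Core

variable {G : Type*} [Group G] [Fintype G] {π : Set ℕ}

theorem piCoreOf_le (π : Set ℕ) (S : Subgroup G) : Cfsg.piCoreOf π S ≤ S := Subgroup.map_subtype_le _

theorem piCoreOf_isPi (π : Set ℕ) (S : Subgroup G) : Cfsg.IsPiSubgroup π (Cfsg.piCoreOf π S) :=
  Hall.isPiSubgroup_map S.subtype Hall.isPiSubgroup_piCore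

theorem le_piCoreOf {S N : Subgroup G} (hNS : N ≤ S) (hn : S ≤ Subgroup.normalizer (N : Set G))
    (hN : Cfsg.IsPiSubgroup π N) : N ≤ Cfsg.piCoreOf π S := by
  haveI : (N.subgroupOf S).Normal := Subgroup.normal_subgroupOf_of_le_normalizer hn
  have h1 : N.subgroupOf S ≤ Cfsg.piCore π S := Hall.le_piCore fun q hq hd =>
    hN q hq (by rwa [Nat.card_congr (Subgroup.subgroupOfEquivOfLe hNS).toEquiv] at hd)
  exact (Subgroup.map_subgroupOf_eq_of_le hNS).ge.trans (Subgroup.map_mono h1)

theorem le_normalizer_piCoreOf (π : Set ℕ) (S : Subgroup G) :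
    S ≤ Subgroup.normalizer (Cfsg.piCoreOf π S : Set G) := by
  intro s hs
  refine PairAlg.mem_normalizer_of_cm (Subgroup.eq_of_le_of_card_ge ?_ (card_cm s _).ge)
  rintro _ ⟨x, ⟨y, hy, rfl⟩, rfl⟩
  exact ⟨⟨s, hs⟩ * y * ⟨s, hs⟩⁻¹, (Cfsg.piCore_normal π S).conj_mem y hy _, rfl⟩

theorem cm_piCoreOf_le (π : Set ℕ) (S : Subgroup G) (x : G) :
    cm x (Cfsg.piCoreOf π S) ≤ Cfsg.piCoreOf π (cm x S) := by
  refine le_piCoreOf (cm_mono (piCoreOf_le π S)) ?_ (Hall.isPiSubgroup_map _ (piCoreOf_isPi π S))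
  exact (cm_mono (le_normalizer_piCoreOf π S)).trans (cm_normalizer x _).le

theorem normalizer_le_normalizer_piCoreOf' (π : Set ℕ) (S : Subgroup G) :
    Subgroup.normalizer (S : Set G) ≤ Subgroup.normalizer (Cfsg.piCoreOf π S : Set G) := by
  intro s hs
  refine PairAlg.mem_normalizer_of_cm (Subgroup.eq_of_le_of_card_ge ?_ (card_cm s _).ge)
  exact (cm_piCoreOf_le π S s).trans (by rw [cm_of_mem_normalizer hs])

theorem not_dvd_card {p : ℕ} (hp : p.Prime) (hpπ : p ∈ π) {K : Subgroup G}
    (hK : Cfsg.IsPiSubgroup {q | q ∉ π} K) : ¬ p ∣ Nat.card K := fun h => hK p hp h hpπ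

/-- A `π'`-subgroup and a `p`-subgroup normalizing each other commute. -/
theorem le_centralizer_of_coprime {p : ℕ} [Fact p.Prime] (hpπ : p ∈ π) {K D : Subgroup G}
    (hK : Cfsg.IsPiSubgroup {q | q ∉ π} K) (hD : IsPGroup p D) (hKD : K ≤ Subgroup.normalizer (D : Set G))
    (hDK : D ≤ Subgroup.normalizer (K : Set G)) : K ≤ Subgroup.centralizer (D : Set G) := by
  have hinf : K ⊓ D = ⊥ := by
    refine Subgroup.inf_eq_bot_of_coprime ?_
    obtain ⟨n, hn⟩ := IsPGroup.iff_card.1 hD
    rw [hn]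
    exact (((Fact.out : p.Prime).coprime_iff_not_dvd.2 (not_dvd_card Fact.out hpπ hK)).pow_left n).symm
  intro u hu
  refine Subgroup.mem_centralizer_iff.2 fun d hd => ?_
  have h1 : u * d * u⁻¹ * d⁻¹ ∈ K ⊓ D := by
    refine Subgroup.mem_inf.2 ⟨?_, D.mul_mem ((Subgroup.mem_normalizer_iff.1 (hKD hu) d).1 hd) (D.inv_mem hd)⟩
    have := K.mul_mem hu ((Subgroup.mem_normalizer_iff.1 (hDK hd) u⁻¹).1 (K.inv_mem hu))
    simpa [mul_assoc] using this
  rw [hinf, Subgroup.mem_bot] at h1
  calc d * u = (u * d * u⁻¹ * d⁻¹)⁻¹ * (u * d) := by group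
    _ = u * d := by rw [h1, inv_one, one_mul]

variable {k : Type*} [Field k] {p : ℕ} [Fact p.Prime] [CharP k p] (hc : Complete k G) (hpπ : p ∈ π)
include hc hpπ

omit hc in
/-- The kernel goes down along a normal step. -/
theorem kills_of_nstep {Q R : Subgroup G} {f g : MonoidAlgebra k G} (hs : NStep p ⊤ Q f R g)
    (hg : Kills (Cfsg.piCoreOf {q | q ∉ π} (Subgroup.centralizer (R : Set G))) g) :
    Kills (Cfsg.piCoreOf {q | q ∉ π} (Subgroup.centralizer (Q : Set G))) f := by
  set π' := {q | q ∉ π} with hπ'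
  set L := Cfsg.piCoreOf π' (Subgroup.centralizer (Q : Set G)) with hL
  have hRL : R ≤ Subgroup.normalizer (L : Set G) :=
    (hs.nor.trans fun u hu => CfsgLib.Blocks.le_normalizer_centralizer Q hu).trans (normalizer_le_normalizer_piCoreOf' π' _)
  have hCR : Subgroup.centralizer (R : Set G) ≤ Subgroup.centralizer (Q : Set G) :=
    Subgroup.centralizer_le hs.le
  have hsub : L ⊓ Subgroup.centralizer (R : Set G) ≤ Cfsg.piCoreOf π' (Subgroup.centralizer (R : Set G)) := by
    refine le_piCoreOf inf_le_right (fun u hu => ?_) (Hall.isPiSubgroup_mono inf_le_left (piCoreOf_isPi π' _))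
    exact Subgroup.inf_normalizer_le_normalizer_inf
      ⟨le_normalizer_piCoreOf π' _ (hCR hu), Subgroup.le_normalizer hu⟩
  exact absorb (H := Subgroup.centralizer (Q : Set G)) (CH_top Q ▸ hs.left.blk) (piCoreOf_le π' _)
    (le_normalizer_piCoreOf π' _) (not_dvd_card Fact.out hpπ (piCoreOf_isPi π' _)) hs.right.isP hRL hs.fix
    hs.right.blk.ne hs.mul (CH_top R ▸ hs.right.blk.cen) inf_le_right (hg.mono hsub)

set_option maxHeartbeats 400000 in
/-- The kernel at a maximal pair gives it at all pairs. -/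
theorem kills_of_ofBlk {E a g : MonoidAlgebra k G} {D R : Subgroup G} (hmax : IsMax p ⊤ E D a)
    (ha : Kills (Cfsg.piCoreOf {q | q ∉ π} (Subgroup.centralizer (D : Set G))) a) (hR : OfBlk p ⊤ E R g) :
    Kills (Cfsg.piCoreOf {q | q ∉ π} (Subgroup.centralizer (R : Set G))) g := by
  obtain ⟨S, s, hS, hle⟩ := exists_max hR
  obtain ⟨y, -, hy1, hy2⟩ := max_conj hc hS hmax
  have hle' := hle.cj y
  rw [show cm y S = D from hy1.symm, ← hy2] at hle'
  have h1 : Kills (Cfsg.piCoreOf {q | q ∉ π} (Subgroup.centralizer ((cm y R : Subgroup G) : Set G))) (PairAlg.cj y g) :=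
    le'_induction (motive := fun T b => Kills (Cfsg.piCoreOf {q | q ∉ π} (Subgroup.centralizer (T : Set G))) b) ha
      (fun _ _ _ _ hs _ ih => kills_of_nstep hpπ hs ih) hle'
  have h2 : Kills (cm y (Cfsg.piCoreOf {q | q ∉ π} (Subgroup.centralizer (R : Set G)))) (PairAlg.cj y g) :=
    h1.mono ((cm_piCoreOf_le _ _ y).trans (by rw [cm_centralizer]))
  have h3 := h2.cj y⁻¹
  rwa [cm_cm, inv_mul_cancel, cm_one, cj_inv_cj] at h3

end Core

open Cfsg CfsgLib.Blocks CfsgLib.CharBasics

attribute [local instance] residueField residue_charP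

noncomputable local instance instFintypeSubgroupPiKer {G : Type*} [Group G] [Fintype G] (K : Subgroup G) :
    Fintype K := Fintype.ofFinite K

variable {p : ℕ} {M : Ideal AlgInt} {G : Type*} [Group G] [Fintype G]

theorem rd_natCast (hM : IsPModular p M) (n : ℕ) : rd hM (n : ℂ) = (n : Residue hM) := by
  induction n with
  | zero => simp [rd_zero]
  | succ n ih => rw [Nat.cast_succ, rd_add hM (memLocalRing_natCast hM n) (memLocalRing_one hM), ih, rd_one,
      Nat.cast_succ]

section Dict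

variable {A : Type*} [Group A] [Fintype A] (hM : IsPModular p M) (ι : A →* G) (hι : Function.Injective ι)
  (K : Subgroup A) [hKn : K.Normal] (hK : ¬ p ∣ Nat.card K)
include hι hK

omit hKn in
theorem up_av : up hM ι (av (k := ℂ) K) = av (k := Residue hM) (K.map ι) := by
  classical
  ext x
  by_cases hx : x ∈ ι.range
  · obtain ⟨a, rfl⟩ := hx
    rw [coeff_up hM ι hι, coeff_av, coeff_av, Subgroup.card_map_of_injective hι]
    have hiff : ι a ∈ K.map ι ↔ a ∈ K := Subgroup.mem_map_iff_mem hι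
    by_cases ha : a ∈ K
    · rw [if_pos ha, if_pos (hiff.2 ha)]
      refine eq_inv_of_mul_eq_one_left ?_
      rw [← rd_natCast hM, ← rd_mul hM (memLocalRing_natCast_inv hM hK) (memLocalRing_natCast hM _),
        inv_mul_cancel₀ (Nat.cast_ne_zero.2 Nat.card_pos.ne'), rd_one]
    · rw [if_neg ha, if_neg fun h => ha (hiff.1 h), rd_zero]
  · rw [coeff_up_of_notMem hM ι _ hx, coeff_av, if_neg]
    rintro ⟨a, -, rfl⟩
    exact hx ⟨a, rfl⟩

omit hι hK in
theorem isClassElt_av : IsClassElt (av (k := ℂ) K) := fun g h => by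
  classical
  simp only [coeff_av]
  refine if_congr ⟨fun hh => ?_, fun hg => hKn.conj_mem g hg h⟩ rfl rfl
  simpa [mul_assoc] using hKn.conj_mem _ hh h⁻¹

omit hι hKn in
include hM in
theorem isIntegralElt_av : IsIntegralElt M (av (k := ℂ) K) := fun g => by
  classical
  rw [coeff_av]
  split_ifs
  · exact memLocalRing_natCast_inv hM hK
  · exact memLocalRing_zero hM

omit hι hKn hK in
theorem omega_av (χ : A → ℂ) :
    omega χ (av (k := ℂ) K) = (∑ u : K, χ (u : A)) / ((Nat.card K : ℂ) * χ 1) := by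
  classical
  rw [omega]
  simp only [coeff_av, ite_mul, zero_mul]
  rw [← Finset.sum_filter, ← Finset.mul_sum, Finset.sum_subtype (p := (· ∈ K)) (Finset.univ.filter (· ∈ K)) (by simp),
    mul_div_assoc, inv_mul_eq_div, div_div, mul_comm (χ 1)]

theorem kills_bl_iff {b : Set (IrrCharacter A)} (hb : IsPBlock M b) {ξ : IrrCharacter A} (hξ : ξ ∈ b) :
    Kills (K.map ι) (bl hM ι b) ↔ ∀ u ∈ K, (ξ : A → ℂ) u = (ξ : A → ℂ) 1 := by
  classical
  haveI := Fact.mk hM.1
  have hcl := isClassElt_av K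
  have hin := isIntegralElt_av hM K hK
  have hcard : (Nat.card K : ℂ) ≠ 0 := Nat.cast_ne_zero.2 Nat.card_pos.ne'
  have hne' : (Nat.card ↥(K.map ι) : Residue hM) ≠ 0 := by
    rw [Subgroup.card_map_of_injective hι]
    exact fun h => hK ((CharP.cast_eq_zero_iff (Residue hM) p _).1 h)
  have hz2 : av (k := ℂ) K * av K = av K := av_idem hcard
  have hid : up hM ι (av (k := ℂ) K) * up hM ι (av K) = up hM ι (av K) := by
    rw [← up_mul hM ι hin hin, hz2]
  have hcomm : bl hM ι b * up hM ι (av K) = up hM ι (av K) * bl hM ι b :=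
    (isBlk_bl hM ι hι hb).cen.comm (cenIn_up hM ι hι hcl).1
  have h1 : Kills (K.map ι) (bl hM ι b) ↔ rd hM (omega (ξ : A → ℂ) (av K)) = 1 := by
    rw [← bl_mul_eq_iff hM ι hι hb hcl hin hid hξ, hcomm, up_av hM ι hι K hK]
    exact ⟨fun h => h.av_mul hne', kills_of_av_mul⟩
  rw [h1]
  have hχ := isCharacter_of_irr ξ.2
  constructor
  · intro h u hu
    have e := omega_mul ξ.2 hcl (w := av (k := ℂ) K)
    rw [hz2] at e
    have hone : omega (ξ : A → ℂ) (av K) = 1 := by
      rcases eq_or_ne (omega (ξ : A → ℂ) (av (k := ℂ) K)) 0 with h0 | h0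
      · rw [h0, rd_zero] at h; exact absurd h zero_ne_one
      · exact mul_left_cancel₀ h0 (by rw [← e, mul_one])
    rw [omega_av K, div_eq_one_iff_eq (mul_ne_zero hcard (apply_one_ne_zero ξ.2))] at hone
    have hd : (ξ : A → ℂ) 1 = (Cfsg.charDegree (ξ : A → ℂ) : ℂ) := apply_one hχ
    have hdpos : (0 : ℝ) < (Cfsg.charDegree (ξ : A → ℂ) : ℝ) := by
      refine Nat.cast_pos.2 (Nat.pos_of_ne_zero fun h0 => apply_one_ne_zero ξ.2 ?_)
      rw [hd, h0, Nat.cast_zero]
    have hsum : ∑ w : K, ((Cfsg.charDegree (ξ : A → ℂ) : ℝ) - ((ξ : A → ℂ) (w : A)).re) = 0 := by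
      rw [Finset.sum_sub_distrib, ← Complex.re_sum, hone, hd, Nat.card_eq_fintype_card]
      simp
    have hle : ∀ w : A, ((ξ : A → ℂ) w).re ≤ (Cfsg.charDegree (ξ : A → ℂ) : ℝ) := fun w =>
      (Complex.re_le_norm _).trans (norm_le hχ w)
    have hw := (Finset.sum_eq_zero_iff_of_nonneg fun (w : K) _ => sub_nonneg.2 (hle w)).1 hsum ⟨u, hu⟩ (Finset.mem_univ _)
    have hre : ((ξ : A → ℂ) u).re = (Cfsg.charDegree (ξ : A → ℂ) : ℝ) := (sub_eq_zero.1 hw).symm
    have him : ((ξ : A → ℂ) u).im = 0 := by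
      have h2 := Complex.sq_norm ((ξ : A → ℂ) u)
      rw [Complex.normSq_apply, hre] at h2
      have h3 : ‖(ξ : A → ℂ) u‖ ^ 2 ≤ (Cfsg.charDegree (ξ : A → ℂ) : ℝ) ^ 2 :=
        pow_le_pow_left₀ (norm_nonneg _) (norm_le hχ u) 2
      nlinarith [mul_self_nonneg ((ξ : A → ℂ) u).im]
    rw [hd]
    exact Complex.ext (by simpa using hre) (by simpa using him)
  · intro h
    rw [omega_av K, Finset.sum_congr rfl (fun (w : K) _ => h (w : A) w.2), Finset.sum_const, Finset.card_univ,
      nsmul_eq_mul, ← Nat.card_eq_fintype_card, div_self (mul_ne_zero hcard (apply_one_ne_zero ξ.2)), rd_one]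

end Dict

variable (hM : IsPModular p M)
include hM

/-- A pair of a block of a subgroup containing the centralizer is a pair of the induced block. -/
theorem ofBlk_of_induced {H : Subgroup G} {b : Set (IrrCharacter H)} {B : Set (IrrCharacter G)}
    (hind : IsInducedBlock M H b B) {R : Subgroup G} (hC : Subgroup.centralizer (R : Set G) ≤ H)
    {a : MonoidAlgebra (Residue hM) G} (h : OfBlk p H (bl hM H.subtype b) R a) :
    OfBlk p ⊤ (bG hM B) R a := by
  classical
  haveI := Fact.mk hM.1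
  obtain ⟨hF, hpair, hm⟩ := h
  have hE : IsBlk (⊤ : Subgroup G) (bG hM B) := range_id (G := G) ▸ isBlk_bl hM (MonoidHom.id G) id_injective hind.2.1
  refine ⟨hE, hpair.of_sub hC, ?_⟩
  obtain ⟨ξ, hξ⟩ := IsPBlock.nonempty hM hind.1
  obtain ⟨χ, hχ⟩ := IsPBlock.nonempty hM hind.2.1
  set z := ZStar.res H (blockElt B) with hz
  have hzc : IsClassElt z := ZStar.isClassElt_res (isClassElt_blockElt B) H
  have hzi : IsIntegralElt M z := ZStar.isIntegralElt_res (isIntegralElt_blockElt hM hind.2.1) H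
  have hω := ZStar.omega_res_induced hM hind hξ hχ (isClassElt_blockElt B) (isIntegralElt_blockElt hM hind.2.1)
  rw [omega_blockElt, if_pos hχ] at hω
  have hup : up hM H.subtype z = cut H (bG hM B) := by
    ext g
    by_cases hg : g ∈ H
    · rw [coeff_cut_of_mem _ hg, show g = H.subtype ⟨g, hg⟩ from rfl, coeff_up hM _ H.subtype_injective, hz,
        ZStar.coeff_res, bG, bl]
      exact (coeff_up hM (MonoidHom.id G) id_injective (blockElt B) g).symm
    · rw [coeff_cut_of_notMem _ hg, coeff_up_of_notMem hM]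
      rwa [Subgroup.range_subtype]
  obtain ⟨n, hn⟩ := bl_mul_sub_nilpotent hM H.subtype hind.1 hzc hzi hξ
  rw [(rd_eq_one_iff hM (memLocalRing_omega hM ξ hzc hzi)).2 hω, one_smul] at hn
  have hFR : Fix R (bl hM H.subtype b) := fix_of_cenIn hF.cen hpair.le
  have hzH : CenIn H (up hM H.subtype z) := by
    have := cenIn_up hM H.subtype H.subtype_injective hzc
    rwa [Subgroup.range_subtype] at this
  have hzR : Fix R (up hM H.subtype z) := fix_of_cenIn hzH hpair.le
  have hER : Fix R (bG hM B) := fix_of_cenIn hE.cen le_top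
  have hBrz : Br R (up hM H.subtype z) = Br R (bG hM B) := by
    rw [hup, Br]; exact cut_cut_of_le hC _
  have hw : CenIn (CH H R) (Br R (bG hM B)) := by
    refine ⟨fun x hx => ⟨hC (supp_cut _ _ x hx), supp_cut _ _ x hx⟩, fun u hu => ?_⟩
    exact (cenIn_br_top (P := R) hE.cen).2 u ⟨Subgroup.mem_top u, hu.2⟩
  rcases hpair.blk.mul_idem hw (by rw [← br_mul hpair.isP hER hER, hE.idem]) with h0 | h0
  · exfalso
    have h1 := congrArg (fun t => a * Br R t) hn
    simp only [br_pow hpair.isP ((hFR.mul hzR).sub hFR), map_zero, mul_zero, map_sub,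
      br_mul hpair.isP hFR hzR, hBrz] at h1
    have hpow : ∀ m : ℕ, a * (Br R (bl hM H.subtype b) * Br R (bG hM B) - Br R (bl hM H.subtype b)) ^ m =
        (-1 : Residue hM) ^ m • a := by
      intro m
      induction m with
      | zero => simp
      | succ m ih =>
        rw [pow_succ, ← mul_assoc, ih, smul_mul_assoc, mul_sub, ← mul_assoc, hm, h0, zero_sub, pow_succ, mul_smul,
          neg_one_smul]
    rw [hpow] at h1
    exact hpair.blk.ne ((smul_eq_zero.1 h1).resolve_left (pow_ne_zero _ (neg_ne_zero.2 one_ne_zero)))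
  · exact h0

/-- The block of the normalizer gives a maximal pair. -/
theorem exists_max_of_normalizer [Fact p.Prime] {B : Set (IrrCharacter G)} {D : Subgroup G}
    (hBD : IsDefectGroup p M B D) {B₁ : Set (IrrCharacter ↥(Subgroup.normalizer (D : Set G)))}
    (hB₁ : IsInducedBlock M (Subgroup.normalizer (D : Set G)) B₁ B)
    (hB₁D : IsDefectGroup p M B₁ (D.subgroupOf (Subgroup.normalizer (D : Set G)))) :
    ∃ a, OfBlk p (Subgroup.normalizer (D : Set G)) (bl hM (Subgroup.normalizer (D : Set G)).subtype B₁) D a ∧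
      IsMax p ⊤ (bG hM B) D a := by
  have hDp : IsPGroup p D := isPGroup_of_isDefectGroup hBD
  have hDN : D ≤ Subgroup.normalizer (D : Set G) := Subgroup.le_normalizer
  have hne := ((isDefectGroup_sub_iff hM hB₁.1 hDp hDN).1 hB₁D).1
  have hF : IsBlk (Subgroup.normalizer (D : Set G)) (bl hM (Subgroup.normalizer (D : Set G)).subtype B₁) := by
    have := isBlk_bl hM (Subgroup.normalizer (D : Set G)).subtype Subtype.coe_injective hB₁.1
    rwa [Subgroup.range_subtype] at this
  obtain ⟨a, ha⟩ := exists_pair (complete (G := G) hM) hF hDp hDN hne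
  have htop := ofBlk_of_induced hM hB₁ (centralizer_le_normalizer D) ha
  refine ⟨a, ha, htop, fun R g hR hle => ?_⟩
  have hd := ((isDefectGroup_iff hM (MonoidHom.id G) id_injective hB₁.2.1).1 hBD).2.2
  rw [range_id] at hd
  exact (Subgroup.eq_of_le_of_card_ge hle.subgroup_le ((le_dmax hR.2.1.isP le_top hR.br_ne).trans hd.ge)).symm

variable [Fact p.Prime] {π : Set ℕ} (hpπ : p ∈ π) {B : Set (IrrCharacter G)} {D : Subgroup G}
  (hBD : IsDefectGroup p M B D) {B₁ : Set (IrrCharacter ↥(Subgroup.normalizer (D : Set G)))}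
  (hB₁ : IsInducedBlock M (Subgroup.normalizer (D : Set G)) B₁ B)
  (hB₁D : IsDefectGroup p M B₁ (D.subgroupOf (Subgroup.normalizer (D : Set G))))
  (hker : ∀ n : ↥(Subgroup.normalizer (D : Set G)),
    n ∈ Cfsg.piCore {q | q ∉ π} ↥(Subgroup.normalizer (D : Set G)) → n ∈ Cfsg.blockKer B₁)
include hpπ hBD hB₁ hB₁D hker

/-- Every pair of the block has the `π'`-core of its centralizer in the kernel. -/
theorem kills_of_hker {R : Subgroup G} {g : MonoidAlgebra (Residue hM) G} (hR : OfBlk p ⊤ (bG hM B) R g) :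
    Kills (Cfsg.piCoreOf {q | q ∉ π} (Subgroup.centralizer (R : Set G))) g := by
  obtain ⟨a, ha, hmax⟩ := exists_max_of_normalizer hM hBD hB₁ hB₁D
  refine kills_of_ofBlk (complete (G := G) hM) hpπ hmax ?_ hR
  set π' := {q | q ∉ π} with hπ'
  obtain ⟨ξ, hξ⟩ := IsPBlock.nonempty hM hB₁.1
  have hKN : Kills (Cfsg.piCoreOf π' (Subgroup.normalizer (D : Set G))) (bl hM (Subgroup.normalizer (D : Set G)).subtype B₁) :=
    (kills_bl_iff hM (Subgroup.normalizer (D : Set G)).subtype (Subgroup.normalizer (D : Set G)).subtype_injective (Cfsg.piCore π' (Subgroup.normalizer (D : Set G)))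
      (not_dvd_card Fact.out hpπ Hall.isPiSubgroup_piCore) hB₁.1 hξ).2 fun u hu => hker u hu ξ hξ
  have hCN : Subgroup.centralizer (D : Set G) ≤ (Subgroup.normalizer (D : Set G)) := centralizer_le_normalizer D
  have hnor : (Subgroup.normalizer (D : Set G)) ≤ Subgroup.normalizer (Cfsg.piCoreOf π' (Subgroup.centralizer (D : Set G)) : Set G) :=
    le_trans (fun u hu => le_normalizer_centralizer D hu) (normalizer_le_normalizer_piCoreOf' π' _)
  have hle : Cfsg.piCoreOf π' (Subgroup.centralizer (D : Set G)) ≤ Cfsg.piCoreOf π' (Subgroup.normalizer (D : Set G)) :=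
    le_piCoreOf ((piCoreOf_le π' _).trans hCN) hnor (piCoreOf_isPi π' _)
  exact (hKN.mono hle).br_pair (le_inf ((piCoreOf_le π' _).trans hCN) (piCoreOf_le π' _)) inf_le_right
    ha.2.1.blk.cen ha.2.2

/-- The `π'`-core of a subgroup with a pair is in the kernel of its block. -/
theorem piCore_le_blockKer {G₀ : Subgroup G} {B₀ : Set (IrrCharacter G₀)} (hB₀ : IsInducedBlock M G₀ B₀ B)
    {R : Subgroup G} (hR : IsPGroup p R) (hRG : R ≤ G₀) (hC : Subgroup.centralizer (R : Set G) ≤ G₀)
    (hne : Br R (bl hM G₀.subtype B₀) ≠ 0) :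
    ∀ x : G₀, x ∈ Cfsg.piCore {q | q ∉ π} G₀ → x ∈ Cfsg.blockKer B₀ := by
  set π' := {q | q ∉ π} with hπ'
  have hF : IsBlk G₀ (bl hM G₀.subtype B₀) := by
    have := isBlk_bl hM G₀.subtype G₀.subtype_injective hB₀.1
    rwa [Subgroup.range_subtype] at this
  obtain ⟨a, ha⟩ := exists_pair (complete (G := G) hM) hF hR hRG hne
  have hk := kills_of_hker hM hpπ hBD hB₁ hB₁D hker (ofBlk_of_induced hM hB₀ hC ha)
  have hRK : G₀ ≤ Subgroup.normalizer (Cfsg.piCoreOf π' G₀ : Set G) := le_normalizer_piCoreOf π' G₀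
  have hsub : Cfsg.piCoreOf π' G₀ ⊓ Subgroup.centralizer (R : Set G) ≤
      Cfsg.piCoreOf π' (Subgroup.centralizer (R : Set G)) :=
    le_piCoreOf inf_le_right (fun u hu => Subgroup.inf_normalizer_le_normalizer_inf
      ⟨hRK (hC hu), Subgroup.le_normalizer hu⟩) (Hall.isPiSubgroup_mono inf_le_left (piCoreOf_isPi π' _))
  have hK : Kills (Cfsg.piCoreOf π' G₀) (bl hM G₀.subtype B₀) :=
    absorb hF (piCoreOf_le π' G₀) hRK (not_dvd_card Fact.out hpπ (piCoreOf_isPi π' _)) hR (hRG.trans hRK)
      (fix_of_cenIn hF.cen hRG) ha.2.1.blk.ne ha.2.2 (CH_of_le hC ▸ ha.2.1.blk.cen) inf_le_right (hk.mono hsub)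
  exact fun x hx ξ hξ => (kills_bl_iff hM G₀.subtype G₀.subtype_injective (Cfsg.piCore π' G₀)
    (not_dvd_card Fact.out hpπ Hall.isPiSubgroup_piCore) hB₀.1 hξ).1 hK x hx

end CfsgLib.PairAlg.PiKernel
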