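import Cfsg.Agent.Blocks.PairAlg.Fusion
import Cfsg.Agent.Blocks.PairAlg.Index

/-!
# The fusion system of a block exists and is saturated
-/

set_option autoImplicit false
set_option linter.unusedSectionVars false
set_option linter.style.haveILetI false

namespace CfsgLib.PairAlg

open Cfsg CfsgLib.Blocks Cfsg.FusionSystem CfsgLib.Fusion

attribute [local instance] residueField residue_charP

universe u

section Construct

variable {k : Type*} [Field k] {G : Type u} [Group G] [Fintype G] {p : ℕ} [Fact p.Prime] [CharP k p]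

theorem range_eq_cm {Q : Subgroup G} {g : G} {φ : Q →* G} (hφ : ∀ u : Q, φ u = g * (u : G) * g⁻¹) :
    φ.range = cm g Q := by
  ext y
  constructor
  · rintro ⟨u, rfl⟩
    rw [hφ]
    exact conj_mem_cm.2 u.2
  · intro hy
    exact ⟨⟨_, mem_cm.1 hy⟩, by rw [hφ]; group⟩

/-- The fusion system of a maximal pair. -/
def mvSystem (hc : Complete k G) {P : Subgroup G} {E e : MonoidAlgebra k G} (hmax : IsMax p ⊤ E P e) :
    FusionSystem P where
  Hom Q := {φ | ∃ g, (∀ u : Q, φ u = g * (u : G) * g⁻¹) ∧ Mv p P e g Q}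
  le_of_mem := by
    rintro Q φ ⟨g, hφ, h⟩
    exact ⟨h.1, fun u => by rw [hφ]; exact h.le (conj_mem_cm.2 u.2)⟩
  injective_of_mem := by
    rintro Q φ ⟨g, hφ, -⟩ a b hab
    rw [hφ, hφ] at hab
    exact Subtype.ext (mul_left_cancel (mul_right_cancel hab))
  conj_mem := by
    intro Q g hQ hg
    obtain ⟨f, hf⟩ := exists_below hc hmax.1.2.1 hQ
    exact ⟨g, fun u => rfl, Mv.of_mem hmax hf hg⟩
  comp_mem := by
    rintro Q R φ ψ ⟨g, hφ, h⟩ ⟨g', hψ, h'⟩ hr
    refine ⟨g' * g, fun u => ?_, Mv.comp hc hmax h (Mv.mono hc hmax h' ?_)⟩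
    · show ψ (φ.codRestrict R hr u) = _
      rw [hψ]
      show g' * φ u * g'⁻¹ = _
      rw [hφ]; group
    · rw [← range_eq_cm hφ]
      rintro _ ⟨u, rfl⟩
      exact hr u
  inv_mem := by
    rintro Q φ ⟨g, hφ, h⟩
    refine ⟨conjHom φ.range g⁻¹, ⟨g⁻¹, fun u => rfl, ?_⟩, fun u => ?_⟩
    · rw [range_eq_cm hφ]; exact h.inv
    · show g⁻¹ * φ u * g⁻¹⁻¹ = _
      rw [hφ]; group

end Construct

variable {p : ℕ} [Fact p.Prime] {M : Ideal AlgInt} {G : Type u} [Group G] [Fintype G] (hM : IsPModular p M)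
  {B : Set (IrrCharacter G)} {P : Subgroup G} {e : Set (IrrCharacter (Subgroup.centralizer (P : Set G)))}
  (hmax : IsMaximalBrauerPair p M B P e)
include hM hmax

theorem exists_blockFusionSystem : ∃ F : FusionSystem P, IsBlockFusionSystemOn p M B P e F := by
  refine ⟨mvSystem (complete (G := G) hM) (isMax_bc hM hmax), hmax, fun Q φ => ?_⟩
  constructor
  · rintro ⟨g, hφ, h⟩
    obtain ⟨h0, h1, h2⟩ := (mv_iff hM hmax).1 h
    exact ⟨h0, g, hφ, h1, h2⟩
  · rintro ⟨h0, g, hφ, h1, h2⟩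
    exact ⟨g, hφ, (mv_iff hM hmax).2 ⟨h0, h1, h2⟩⟩

variable {F : FusionSystem P} (hF : IsBlockFusionSystemOn p M B P e F)
include hF

/-- The conjugation action of the stabilizer of a pair. -/
theorem exists_autHom {Q : Subgroup G} {a : MonoidAlgebra (Residue hM) G} (h : LE' p ⊤ Q a P (bc hM P e)) :
    ∃ φ : ↥(stab Q a) →* MulAut Q, φ.range = F.autGroup Q ∧
      φ.ker = (Subgroup.centralizer (Q : Set G)).subgroupOf (stab Q a) ∧
      (∀ (t : stab Q a) (x : Q), ((φ t x : Q) : G) = t * x * (t : G)⁻¹) := by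
  have hc := complete (G := G) hM
  have hm := isMax_bc hM hmax
  let ι : ↥(stab Q a) →* ↥(normalizerIn (⊤ : Subgroup G) Q) :=
    Subgroup.inclusion (show stab Q a ≤ normalizerIn (⊤ : Subgroup G) Q from fun t ht => ⟨trivial, ht.1⟩)
  refine ⟨(conjAut Q (⊤ : Subgroup G)).comp ι, ?_, ?_, fun t x => rfl⟩
  · ext α
    constructor
    · rintro ⟨t, rfl⟩
      refine mem_autGroup_of_eq (φ := conjHom Q (t : G))
        ((mem_hom_iff hM hmax hF).2 ⟨(t : G), fun u => rfl, h.subgroup_le, a, h, ?_⟩) fun x => rfl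
      rw [cm_of_mem_normalizer t.2.1, mem_stabOf.1 t.2.2]
      exact h
    · intro hα
      obtain ⟨g, hg, hmv⟩ := (mem_hom_iff hM hmax hF).1 ((mem_autGroup h.subgroup_le).1 hα)
      have hgN : g ∈ Subgroup.normalizer (Q : Set G) := mem_normalizer_of_conj (α := α) fun x => hg x
      have hb := hmv.below hc hm h
      rw [cm_of_mem_normalizer hgN] at hb
      refine ⟨⟨g, hgN, below_unique hc hm.1.2.1 hb h⟩, ?_⟩
      ext x
      exact (hg x).symm
  · ext t
    rw [MonoidHom.mem_ker, Subgroup.mem_subgroupOf, Subgroup.mem_centralizer_iff]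
    constructor
    · intro ht q hq
      have h1 := congrArg (fun β : MulAut Q => ((β ⟨q, hq⟩ : Q) : G)) ht
      simp only [MonoidHom.comp_apply, conjAut_apply, MulAut.one_apply] at h1
      conv_lhs => rw [show q = (t : G) * q * (t : G)⁻¹ from h1.symm]
      group
    · intro ht
      ext x
      show (t : G) * x * (t : G)⁻¹ = x
      rw [← ht x x.2, mul_inv_cancel_right]

theorem isFullyAutomized_of_full {Q : Subgroup G} {a : MonoidAlgebra (Residue hM) G}
    (h : LE' p ⊤ Q a P (bc hM P e))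
    (hfull : Nat.card ↥(P ⊓ Subgroup.normalizer (Q : Set G)) = dmax p (stab Q a) a) :
    F.IsFullyAutomized p Q := by
  have hc := complete (G := G) hM
  have hm := isMax_bc hM hmax
  obtain ⟨f, hf, rfl⟩ := exists_bc hM (isPair_of_le' hM hmax h)
  obtain ⟨φ, hr, hk, hφ⟩ := exists_autHom hM hmax hF h
  have hSle := normalizer_le_stab hc hm h
  have hPp : IsPGroup p P := hmax.1.1.1
  have hidx := not_dvd_map_relIndex hM hf (S := P ⊓ Subgroup.normalizer (Q : Set G)) (hPp.to_le inf_le_left) hSle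
    (br_normalizer_ne hc hm h) hfull φ hk
  have himg : ((P ⊓ Subgroup.normalizer (Q : Set G)).subgroupOf (stab Q (bc hM Q f))).map φ = autInducedBy P Q := by
    ext α
    rw [mem_autInducedBy, Subgroup.mem_map]
    constructor
    · rintro ⟨t, ht, rfl⟩
      exact ⟨t, (Subgroup.mem_subgroupOf.1 ht).1, hφ t⟩
    · rintro ⟨g, hg, hα⟩
      have hgS : g ∈ P ⊓ Subgroup.normalizer (Q : Set G) := ⟨hg, mem_normalizer_of_conj hα⟩
      exact ⟨⟨g, hSle hgS⟩, hgS, MulEquiv.ext fun x => Subtype.ext ((hφ _ x).trans (hα x).symm)⟩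
  rw [himg, hr] at hidx
  have hle : autInducedBy P Q ≤ F.autGroup Q := autInducedBy_le_autGroup h.subgroup_le
  have hp1 : IsPGroup p ↥((autInducedBy P Q).subgroupOf (F.autGroup Q)) := by
    refine IsPGroup.of_equiv ?_ (Subgroup.subgroupOfEquivOfLe hle).symm
    rw [← himg]
    exact ((hPp.to_le inf_le_left).of_equiv (Subgroup.subgroupOfEquivOfLe hSle).symm).map φ
  exact ⟨h.subgroup_le, hp1.toSylow hidx, rfl⟩

theorem isReceptive_of_full {Q : Subgroup G} {a : MonoidAlgebra (Residue hM) G}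
    (h : LE' p ⊤ Q a P (bc hM P e))
    (hfull : Nat.card ↥(P ⊓ Subgroup.normalizer (Q : Set G)) = dmax p (stab Q a) a) :
    F.IsReceptive Q := by
  have hc := complete (G := G) hM
  have hm := isMax_bc hM hmax
  refine ⟨h.subgroup_le, fun R φ hφ hφQ => ?_⟩
  have hRN : R ≤ extender P R φ := le_extender hφ
  obtain ⟨g, hg, hmv⟩ := (mem_hom_iff hM hmax hF).1 hφ
  have hgQ : cm g R = Q := (range_eq_cm hg).symm.trans hφQ
  set N := extender P R φ with hN
  have hNP : N ≤ P := fun x hx => (mem_extender.1 hx).1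
  obtain ⟨eR, heR⟩ := exists_below hc hm.1.2.1 hmv.1
  obtain ⟨eN, heN⟩ := exists_below hc hm.1.2.1 hNP
  have heNp := heN.isPair hm.1.2.1
  have hstep : NStep p ⊤ R eR N eN := by
    obtain ⟨r, hr⟩ := exists_below hc heNp hRN
    obtain rfl := below_unique hc hm.1.2.1 (hr.trans heN) heR
    exact LE'.nstep hc heNp hr fun x hx => (mem_extender.1 hx).2.1
  have hsX := hstep.cj g
  have hb := hmv.below hc hm heR
  rw [hgQ] at hsX hb
  rw [below_unique hc hm.1.2.1 hb h] at hsX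
  have hXK : cm g N ≤ (P ⊓ Subgroup.normalizer (Q : Set G)) ⊔ Subgroup.centralizer (Q : Set G) := by
    intro y hy
    obtain ⟨x, hx, rfl⟩ := hy
    obtain ⟨-, hxR, s, hs, hconj⟩ := mem_extender.1 hx
    have e' : ∀ z : R, g * (x * z * x⁻¹) * g⁻¹ = s * φ z * s⁻¹ := fun z => by
      rw [← hconj z (conj_mem_of_normalizer hxR z.2), hg]
    have hsQ : s ∈ Subgroup.normalizer (Q : Set G) := by
      refine mem_normalizer_of_cm (Subgroup.eq_of_le_of_card_ge ?_ (card_cm s Q).ge)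
      intro w hw
      obtain ⟨v, hv, rfl⟩ := hw
      rw [← hφQ] at hv
      obtain ⟨z, rfl⟩ := hv
      show s * φ z * s⁻¹ ∈ Q
      rw [← e', ← hgQ]
      exact conj_mem_cm.2 (conj_mem_of_normalizer hxR z.2)
    have hcC : s⁻¹ * (g * x * g⁻¹) ∈ Subgroup.centralizer (Q : Set G) := by
      refine Subgroup.mem_centralizer_iff.2 fun w hw => ?_
      rw [← hφQ] at hw
      obtain ⟨z, rfl⟩ := hw
      calc φ z * (s⁻¹ * (g * x * g⁻¹)) = s⁻¹ * (s * φ z * s⁻¹) * (g * x * g⁻¹) := by group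
        _ = s⁻¹ * (g * (x * z * x⁻¹) * g⁻¹) * (g * x * g⁻¹) := by rw [e']
        _ = s⁻¹ * (g * x * g⁻¹) * (g * z * g⁻¹) := by group
        _ = _ := by rw [hg]
    have := Subgroup.mul_mem_sup (show s ∈ P ⊓ Subgroup.normalizer (Q : Set G) from ⟨hs, hsQ⟩) hcC
    rw [mul_inv_cancel_left] at this
    simpa using this
  obtain ⟨c, hcQ, hcl⟩ := exists_extension hc hm h hfull hsX hXK
  refine ⟨conjHom N (c * g), (mem_hom_iff hM hmax hF).2 ⟨c * g, fun u => rfl, hNP, eN, heN, ?_⟩, ?_⟩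
  · rw [← cm_cm, ← cj_cj]; exact hcl
  · intro x hxR hxN
    show c * g * x * (c * g)⁻¹ = φ ⟨x, hxR⟩
    rw [hg]
    have : g * x * g⁻¹ ∈ Q := hgQ ▸ conj_mem_cm.2 hxR
    calc c * g * x * (c * g)⁻¹ = c * (g * x * g⁻¹) * c⁻¹ := by group
      _ = (g * x * g⁻¹) * c * c⁻¹ := by rw [← Subgroup.mem_centralizer_iff.1 hcQ _ this]
      _ = _ := by group

theorem isSaturated_block : F.IsSaturated p := by
  have hc := complete (G := G) hM
  have hm := isMax_bc hM hmax
  intro R hR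
  obtain ⟨a, ha⟩ := exists_below hc hm.1.2.1 hR
  obtain ⟨x, hx, hcard⟩ := exists_full hc hm ha (le_refl (stab R a))
  rw [cm_stab, inf_stab_eq (normalizer_le_stab hc hm hx)] at hcard
  rw [← dmax_cm x, cm_stab] at hcard
  exact ⟨cm x R, (isConj_iff hM hmax hF).2 ⟨x, ⟨hR, a, ha, hx⟩, rfl⟩,
    isFullyAutomized_of_full hM hmax hF hx hcard, isReceptive_of_full hM hmax hF hx hcard⟩

end CfsgLib.PairAlg
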