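import Cfsg.Agent.Blocks.PairAlg.Full
import Cfsg.Agent.Fusion.Basic

/-!
# Elements of order prime to `p` acting like `p`-elements
-/

set_option autoImplicit false
set_option linter.unusedSectionVars false

namespace CfsgLib.PairAlg

open Cfsg

variable {G : Type*} [Group G] [Fintype G] {p : ℕ} [Fact p.Prime]

/-- A `p`-regular element acting on a subgroup as a `p`-element does centralizes it. -/
theorem mem_centralizer_of_acts_like {R : Subgroup G} {x u : G} (hxN : x ∈ Subgroup.normalizer (R : Set G))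
    (hx : IsPRegular p x) (hu : ∃ k : ℕ, u ^ p ^ k = 1) (h : ∀ r ∈ R, x * r * x⁻¹ = u * r * u⁻¹) :
    x ∈ Subgroup.centralizer (R : Set G) := by
  obtain ⟨k, hk⟩ := hu
  have huN : u ∈ Subgroup.normalizer (R : Set G) := by
    refine mem_normalizer_of_cm (Subgroup.eq_of_le_of_card_ge ?_ (card_cm u R).ge)
    rintro _ ⟨r, hr, rfl⟩
    show u * r * u⁻¹ ∈ R
    rw [← h r hr]
    exact (Subgroup.mem_normalizer_iff.1 hxN r).1 hr
  set ψ := CfsgLib.Fusion.conjAut R (⊤ : Subgroup G) with hψ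
  have heq : ψ ⟨x, trivial, hxN⟩ = ψ ⟨u, trivial, huN⟩ := MulEquiv.ext fun r => Subtype.ext (h r r.2)
  have hd1 : orderOf (ψ ⟨x, trivial, hxN⟩) ∣ orderOf x := (orderOf_map_dvd ψ _).trans (by rw [← Subgroup.orderOf_coe])
  have hd2 : orderOf (ψ ⟨x, trivial, hxN⟩) ∣ p ^ k := by
    rw [heq]
    exact (orderOf_map_dvd ψ _).trans (orderOf_dvd_of_pow_eq_one (Subtype.ext hk))
  have hcop : (p ^ k).Coprime (orderOf x) := Nat.Coprime.pow_left _ ((Fact.out : p.Prime).coprime_iff_not_dvd.2 hx)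
  have h1 : ψ ⟨x, trivial, hxN⟩ = 1 := orderOf_eq_one_iff.1 (Nat.eq_one_of_dvd_coprimes hcop hd2 hd1)
  refine Subgroup.mem_centralizer_iff.2 fun r hr => ?_
  have h2 : x * r * x⁻¹ = r := congrArg (fun β : MulAut R => ((β ⟨r, hr⟩ : R) : G)) h1
  conv_lhs => rw [← h2]
  group

end CfsgLib.PairAlg
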